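import Mathlib

set_option autoImplicit false

/-!
# Piece KU-K2 of S4648 (helper1's job board): the associativity computation
-/

namespace Cfsg.Agent.Lib.Helper19.Kuls

universe u v

/-- the linear-algebra case analysis on the eight associativity identities -/
theorem case_analysis {F : Type u} {M : Type v} [Field F] [AddCommGroup M] [Module F M]
    (α β γ : F) (X1 X2 Y1 Y2 : M)
    (e1 : α • Y2 = γ • X1) (e2 : γ • X2 = (γ - 1) • X1) (e3 : (γ - 1) • Y2 = γ • Y1)
    (e4 : β • X2 = (γ - 1) • Y1) (e5 : α • X2 = α • X1) (e8 : (γ - 1) • X2 = α • Y1) :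
    X1 = 0 ∧ Y1 = 0 := by
  by_cases h0 : γ = 0
  · subst h0
    have hX1 : X1 = 0 := by
      simpa using e2
    have hX2 : X2 = 0 := by
      by_cases hα : α = 0
      · subst hα
        simpa using e8
      · rw [hX1, smul_zero] at e5
        exact (smul_eq_zero.1 e5).resolve_left hα
    refine ⟨hX1, ?_⟩
    rw [hX2, smul_zero] at e4
    simpa using e4.symm
  by_cases h1 : γ = 1
  · subst h1
    have hY1 : Y1 = 0 := by simpa using e3.symm
    have hX2 : X2 = 0 := by simpa using e2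
    refine ⟨?_, hY1⟩
    by_cases hα : α = 0
    · subst hα
      simpa using e1.symm
    · rw [hX2, smul_zero] at e5
      exact (smul_eq_zero.1 e5.symm).resolve_left hα
  · have hγ1 : γ - 1 ≠ 0 := sub_ne_zero.2 h1
    have hαX1 : α • X1 = 0 := by
      have h : γ • (α • X2) = γ • (α • X1) := by rw [e5]
      have h' : α • (γ • X2) = α • ((γ - 1) • X1) := by rw [e2]
      have e : α • X1 = γ • (α • X1) - α • ((γ - 1) • X1) := by module
      rw [e, ← h, ← h']
      module
    by_cases hα : α = 0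
    · subst hα
      have hX1 : X1 = 0 := by
        rw [zero_smul] at e1
        exact (smul_eq_zero.1 e1.symm).resolve_left h0
      have hX2 : X2 = 0 := by
        rw [hX1, smul_zero] at e2
        exact (smul_eq_zero.1 e2).resolve_left h0
      refine ⟨hX1, ?_⟩
      rw [hX2, smul_zero] at e4
      exact (smul_eq_zero.1 e4.symm).resolve_left hγ1
    · have hX1 : X1 = 0 := (smul_eq_zero.1 hαX1).resolve_left hα
      have hX2 : X2 = 0 := by
        rw [hX1, smul_zero] at e2
        exact (smul_eq_zero.1 e2).resolve_left h0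
      refine ⟨hX1, ?_⟩
      rw [hX2, smul_zero] at e8
      exact (smul_eq_zero.1 e8.symm).resolve_left hα

variable {F : Type u} {A : Type v} [Field F] [Ring A] [Algebra F A]

theorem assoc_rel (J : Ideal A) [J.IsTwoSided] (c u v w : A) (a b : F) (hu : u ∈ J)
    (hw : w ∈ J) (h1 : u * v - a • c ∈ J ^ 3) (h2 : v * w - b • c ∈ J ^ 3) :
    a • (c * w) - b • (u * c) ∈ J ^ 4 := by
  have e : a • (c * w) - b • (u * c) = u * (v * w - b • c) - (u * v - a • c) * w := by
    rw [mul_sub, sub_mul, mul_smul_comm, smul_mul_assoc, mul_assoc]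
    abel
  rw [e]
  refine sub_mem ?_ ?_
  · have : J ^ 4 = J * J ^ 3 := Ideal.IsTwoSided.pow_succ 3
    rw [this]
    exact Ideal.mul_mem_mul hu h2
  · have : J ^ 4 = J ^ 3 * J := Submodule.pow_succ J (n := 3)
    rw [this]
    exact Ideal.mul_mem_mul h1 hw

theorem quot_rel (N : Submodule F A) (a b : F) (P Q : A) (h : a • P - b • Q ∈ N) :
    a • N.mkQ P = b • N.mkQ Q := by
  have h0 := (Submodule.Quotient.mk_eq_zero N).2 h
  rw [← Submodule.mkQ_apply, map_sub, map_smul, map_smul, sub_eq_zero] at h0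
  exact h0

/-- KU-K2: the associativity computation. -/
theorem kuls_K2 {F : Type u} {A : Type v} [Field F] [Ring A] [Algebra F A]
    (J : Ideal A) [J.IsTwoSided] (hJ : ∃ m : ℕ, J ^ m = ⊥) (x y : A) (hx : x ∈ J) (hy : y ∈ J)
    (h1 : ∀ a ∈ J, ∃ α β : F, a - (α • x + β • y) ∈ J ^ 2)
    (h2 : ∀ a ∈ J ^ 2, ∃ γ : F, a - γ • (x * y - y * x) ∈ J ^ 3) : J ^ 3 = ⊥ := by
  set c := x * y - y * x with hc
  have hJ2 : J ^ 2 = J * J := by
    have := Ideal.IsTwoSided.pow_succ (I := J) 1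
    rwa [Submodule.pow_one] at this
  have hxx2 : x * x ∈ J ^ 2 := by rw [hJ2]; exact Ideal.mul_mem_mul hx hx
  have hyy2 : y * y ∈ J ^ 2 := by rw [hJ2]; exact Ideal.mul_mem_mul hy hy
  have hxy2 : x * y ∈ J ^ 2 := by rw [hJ2]; exact Ideal.mul_mem_mul hx hy
  obtain ⟨α, hα⟩ := h2 _ hxx2
  obtain ⟨β, hβ⟩ := h2 _ hyy2
  obtain ⟨γ, hγ⟩ := h2 _ hxy2
  have hγ' : y * x - (γ - 1) • c ∈ J ^ 3 := by
    have : y * x - (γ - 1) • c = x * y - γ • c := by
      rw [sub_smul, one_smul, hc]
      abel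
    rw [this]
    exact hγ
  -- the associativity identities modulo `J ^ 4`
  have r1 := assoc_rel J c x x y α γ hx hy hα hγ
  have r2 := assoc_rel J c x y x γ (γ - 1) hx hx hγ hγ'
  have r3 := assoc_rel J c y x y (γ - 1) γ hy hy hγ' hγ
  have r4 := assoc_rel J c y y x β (γ - 1) hy hx hβ hγ'
  have r5 := assoc_rel J c x x x α α hx hx hα hα
  have r8 := assoc_rel J c y x x (γ - 1) α hy hx hγ' hα
  set N : Submodule F A := (J ^ 4).restrictScalars F with hN
  obtain ⟨hX1, hY1⟩ := case_analysis α β γ (N.mkQ (x * c)) (N.mkQ (c * x)) (N.mkQ (y * c))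
    (N.mkQ (c * y)) (quot_rel N _ _ _ _ r1) (quot_rel N _ _ _ _ r2) (quot_rel N _ _ _ _ r3)
    (quot_rel N _ _ _ _ r4) (quot_rel N _ _ _ _ r5) (quot_rel N _ _ _ _ r8)
  have hxc : x * c ∈ J ^ 4 := by
    have := (Submodule.Quotient.mk_eq_zero N).1 hX1
    exact this
  have hyc : y * c ∈ J ^ 4 := by
    have := (Submodule.Quotient.mk_eq_zero N).1 hY1
    exact this
  -- `J ^ 3 ≤ J ^ 4`
  have h34 : J ^ 3 ≤ J ^ 4 := by
    have e3 : J ^ 3 = J * J ^ 2 := Ideal.IsTwoSided.pow_succ 2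
    rw [e3, Ideal.mul_le]
    intro r hr s hs
    obtain ⟨α', β', hr'⟩ := h1 r hr
    obtain ⟨γ', hs'⟩ := h2 s hs
    have hlin : α' • x + β' • y ∈ J :=
      add_mem (Submodule.smul_of_tower_mem J α' hx) (Submodule.smul_of_tower_mem J β' hy)
    have eL : (α' • x + β' • y) * c = α' • (x * c) + β' • (y * c) := by
      rw [add_mul, smul_mul_assoc, smul_mul_assoc]
    have e : r * s = (r - (α' • x + β' • y)) * s + (α' • x + β' • y) * (s - γ' • c)
        + γ' • (α' • (x * c) + β' • (y * c)) := by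
      rw [← eL, sub_mul, mul_sub, mul_smul_comm]
      abel
    rw [e]
    refine add_mem (add_mem ?_ ?_) ?_
    · have : J ^ 4 = J ^ 2 * J ^ 2 := Ideal.IsTwoSided.pow_add 2 2
      rw [this]
      exact Ideal.mul_mem_mul hr' hs
    · have : J ^ 4 = J * J ^ 3 := Ideal.IsTwoSided.pow_succ 3
      rw [this]
      exact Ideal.mul_mem_mul hlin hs'
    · exact Submodule.smul_of_tower_mem _ _
        (add_mem (Submodule.smul_of_tower_mem _ _ hxc) (Submodule.smul_of_tower_mem _ _ hyc))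
  -- nilpotency
  obtain ⟨m, hm⟩ := hJ
  have hind : ∀ t : ℕ, J ^ 3 ≤ J ^ (t + 3) := by
    intro t
    induction t with
    | zero => simp
    | succ t ih =>
      refine le_trans ih ?_
      have e1 : J ^ (t + 3) = J ^ t * J ^ 3 := Ideal.IsTwoSided.pow_add t 3
      have e2 : J ^ (t + 1 + 3) = J ^ t * J ^ 4 := Ideal.IsTwoSided.pow_add t 4
      rw [e1, e2]
      exact Ideal.mul_mono le_rfl h34
  rw [eq_bot_iff]
  refine le_trans (hind m) ?_
  rw [← hm]
  exact Ideal.pow_le_pow_right (by omega)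

end Cfsg.Agent.Lib.Helper19.Kuls
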