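import Mathlib
import Cfsg.Agent.Lib.Helper65.MonoDefs

/-!
# S5634 piece CASED (for helper65): if no non-monomial element of `X` has a zero entry,
then every element of `X` is monomial.
-/

set_option autoImplicit false

namespace Cfsg.Agent.Lib.Helper65.Mono

open Matrix

section
variable {F : Type*} [Field F] {κ : Type} [Fintype κ] [DecidableEq κ]

/-- CASED -/
theorem caseD (hn : 7 ≤ Fintype.card κ) {X : Subgroup (GL κ F)} (hX : MonIn X) (hrk : RKP X)
    (hD : ∀ x ∈ X, ¬ IsMono (x : Matrix κ κ F) → ∀ i j, (x : Matrix κ κ F) i j ≠ 0) :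
    ∀ x ∈ X, IsMono (x : Matrix κ κ F) := by
  intro x hx
  by_contra hnm
  have hnm' : ¬ IsMono ((x⁻¹ : GL κ F) : Matrix κ κ F) :=
    fun h => hnm ((isMono_inv_iff x).mp h)
  have hx0 := hD x hx hnm
  have hψ0 := hD x⁻¹ (X.inv_mem hx) hnm'
  obtain ⟨j1, j2, k, h12, h1k, h2k⟩ :=
    Fintype.two_lt_card_iff.mp (by omega : 2 < Fintype.card κ)
  -- for `j ≠ k`, the product `x j a * ψ a k` is independent of `a`
  have key : ∀ j, j ≠ k → ∀ a b,
      (x : Matrix κ κ F) j a * ((x⁻¹ : GL κ F) : Matrix κ κ F) a k =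
        (x : Matrix κ κ F) j b * ((x⁻¹ : GL κ F) : Matrix κ κ F) b k := by
    intro j hjk a b
    by_contra hne
    have hab : a ≠ b := by
      rintro rfl
      exact hne rfl
    have hca0 : (x : Matrix κ κ F) j a * ((x⁻¹ : GL κ F) : Matrix κ κ F) a k ≠ 0 :=
      mul_ne_zero (hx0 j a) (hψ0 a k)
    have hcb0 : (x : Matrix κ κ F) j b * ((x⁻¹ : GL κ F) : Matrix κ κ F) b k ≠ 0 :=
      mul_ne_zero (hx0 j b) (hψ0 b k)
    have hform : ∀ t : Fˣ, ((x * dg a b t * x⁻¹ : GL κ F) : Matrix κ κ F) j k =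
        ((t : F) - 1) * ((x : Matrix κ κ F) j a * ((x⁻¹ : GL κ F) : Matrix κ κ F) a k) +
        (((t⁻¹ : Fˣ) : F) - 1) *
          ((x : Matrix κ κ F) j b * ((x⁻¹ : GL κ F) : Matrix κ κ F) b k) := by
      intro t
      rw [conj_dg_apply x hab t j k, if_neg hjk]
      ring
    generalize (x : Matrix κ κ F) j a * ((x⁻¹ : GL κ F) : Matrix κ κ F) a k = ca
      at hne hca0 hform
    generalize (x : Matrix κ κ F) j b * ((x⁻¹ : GL κ F) : Matrix κ κ F) b k = cb
      at hne hcb0 hform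
    have ht1 : Units.mk0 (cb / ca) (div_ne_zero hcb0 hca0) ≠ 1 := by
      intro h
      have h' : ((Units.mk0 (cb / ca) (div_ne_zero hcb0 hca0) : Fˣ) : F) = 1 := by
        rw [h]; rfl
      rw [Units.val_mk0, div_eq_one_iff_eq hca0] at h'
      exact hne h'.symm
    have hy : x * dg a b (Units.mk0 (cb / ca) (div_ne_zero hcb0 hca0)) * x⁻¹ ∈ X :=
      X.mul_mem (X.mul_mem hx (dg_mem hX hab _)) (X.inv_mem hx)
    have hynm := hrk x hx hnm a b hab _ ht1
    apply hD _ hy hynm j k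
    rw [hform, Units.val_inv_eq_inv_val, Units.val_mk0, inv_div]
    field_simp
    ring
  -- the rows `j1`, `j2` of `x` are proportional
  have hprop : ∀ a, (x : Matrix κ κ F) j2 k * (x : Matrix κ κ F) j1 a =
      (x : Matrix κ κ F) j1 k * (x : Matrix κ κ F) j2 a := by
    intro a
    have e1 := key j1 h1k a k
    have e2 := key j2 h2k a k
    have hψa := hψ0 a k
    have hψk := hψ0 k k
    have h3 : (x : Matrix κ κ F) j2 k * (x : Matrix κ κ F) j1 a *
        (((x⁻¹ : GL κ F) : Matrix κ κ F) a k * ((x⁻¹ : GL κ F) : Matrix κ κ F) k k) =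
        (x : Matrix κ κ F) j1 k * (x : Matrix κ κ F) j2 a *
        (((x⁻¹ : GL κ F) : Matrix κ κ F) a k * ((x⁻¹ : GL κ F) : Matrix κ κ F) k k) := by
      calc (x : Matrix κ κ F) j2 k * (x : Matrix κ κ F) j1 a *
          (((x⁻¹ : GL κ F) : Matrix κ κ F) a k * ((x⁻¹ : GL κ F) : Matrix κ κ F) k k)
          = ((x : Matrix κ κ F) j2 k * ((x⁻¹ : GL κ F) : Matrix κ κ F) k k) *
            ((x : Matrix κ κ F) j1 a * ((x⁻¹ : GL κ F) : Matrix κ κ F) a k) := by ring
        _ = ((x : Matrix κ κ F) j2 a * ((x⁻¹ : GL κ F) : Matrix κ κ F) a k) *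
            ((x : Matrix κ κ F) j1 k * ((x⁻¹ : GL κ F) : Matrix κ κ F) k k) := by
              rw [e1, e2]
        _ = _ := by ring
    exact mul_right_cancel₀ (mul_ne_zero hψa hψk) h3
  have s1 := gl_mul_inv_apply x j1 j1
  have s2 := gl_mul_inv_apply x j2 j1
  rw [if_pos rfl] at s1
  rw [if_neg (Ne.symm h12)] at s2
  have hfin : (x : Matrix κ κ F) j2 k * 1 = (x : Matrix κ κ F) j1 k * 0 := by
    rw [← s1, ← s2, Finset.mul_sum, Finset.mul_sum]
    apply Finset.sum_congr rfl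
    intro a _
    rw [← mul_assoc, ← mul_assoc, hprop a]
  rw [mul_one, mul_zero] at hfin
  exact hx0 j2 k hfin

end

end Cfsg.Agent.Lib.Helper65.Mono
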