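import Mathlib
import Cfsg.Prelude.Def_GeometricClasses
import Cfsg.Agent.Lib.Helper71.Asch0
import Cfsg.Agent.Lib.Helper18.Darboux

/-!
# S5630 (Aschbacher), piece UFS (helper19 for helper71)

An absolutely irreducible subgroup `L` normalised by `H` and fixing a non-degenerate bilinear form
`f`: `H` lies in the similarity group of `f` (`le_similarity`, reusable for UFQ).  For a symplectic
form `n` is even, and `H` lies in a member of class 8 (`UFS`).
-/

set_option autoImplicit false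

namespace Cfsg.Agent.Lib.Helper19.ASUFS

open Matrix Cfsg.Geo Cfsg.Agent.Lib.Helper71.Asch
open scoped Kronecker

variable {n : ℕ} {F : Type*} [Field F]

/-- The bilinear form of `LinearMap.BilinForm` type attached to a bilinear `f`. -/
noncomputable def bil (f : (Fin n → F) → (Fin n → F) → F) (hf : IsBilinearForm f) :
    LinearMap.BilinForm F (Fin n → F) :=
  LinearMap.mk₂ F f hf.add_left hf.smul_left hf.add_right hf.smul_right

theorem bil_apply (f : (Fin n → F) → (Fin n → F) → F) (hf : IsBilinearForm f)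
    (u v : Fin n → F) : bil f hf u v = f u v := rfl

/-- The Gram matrix of a bilinear form. -/
theorem exists_gram (f : (Fin n → F) → (Fin n → F) → F) (hf : IsBilinearForm f) :
    ∃ S : Matrix (Fin n) (Fin n) F, ∀ u v, f u v = u ⬝ᵥ (S *ᵥ v) := by
  refine ⟨LinearMap.BilinForm.toMatrix' (bil f hf), fun u v => ?_⟩
  rw [← Matrix.toBilin'_apply', Matrix.toBilin'_toMatrix', bil_apply]

theorem dot_mulVec_mulVec (S x y : Matrix (Fin n) (Fin n) F) (u v : Fin n → F) :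
    (x *ᵥ u) ⬝ᵥ (S *ᵥ (y *ᵥ v)) = u ⬝ᵥ ((xᵀ * S * y) *ᵥ v) := by
  rw [← Matrix.vecMul_transpose, ← Matrix.dotProduct_mulVec, Matrix.mulVec_mulVec,
    Matrix.mulVec_mulVec, Matrix.mul_assoc]

theorem eq_of_dot (A B : Matrix (Fin n) (Fin n) F)
    (h : ∀ u v : Fin n → F, u ⬝ᵥ (A *ᵥ v) = u ⬝ᵥ (B *ᵥ v)) : A = B := by
  ext i j
  have h1 := h (Pi.single i 1) (Pi.single j 1)
  simpa using h1

/-- Uniqueness of invariant bilinear forms up to scalars: `H ≤ similarityGroup f`. -/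
theorem le_similarity (hn : 0 < n) (H L : Subgroup (GL (Fin n) F)) (hN : Nrm H L)
    (hLa : ActsAbsolutelyIrreducibly (matrixSet L)) (f : (Fin n → F) → (Fin n → F) → F)
    (hb : IsBilinearForm f) (hnd : IsNondegenerateForm f) (hfix : FixesForm (matrixSet L) f) :
    H ≤ similarityGroup f := by
  haveI : Nonempty (Fin n) := ⟨⟨0, hn⟩⟩
  obtain ⟨S, hS⟩ := exists_gram f hb
  have hSdet : S.det ≠ 0 := by
    intro h0
    obtain ⟨v, hv, hSv⟩ := Matrix.exists_mulVec_eq_zero_iff.2 h0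
    obtain ⟨x, hx⟩ := (hnd v hv).1
    apply hx
    rw [hS, hSv, dotProduct_zero]
  have hSu : IsUnit S.det := isUnit_iff_ne_zero.2 hSdet
  have hL : ∀ x ∈ L, (x.1)ᵀ * S * x.1 = S := by
    intro x hx
    apply eq_of_dot
    intro u v
    rw [← dot_mulVec_mulVec, ← hS, ← hS]
    exact hfix x.1 ⟨x, hx, rfl⟩ u v
  intro h hh
  obtain ⟨Sh, hShdef⟩ : ∃ Sh : Matrix (Fin n) (Fin n) F, Sh = (h.1)ᵀ * S * h.1 := ⟨_, rfl⟩
  have hLh : ∀ x ∈ L, (x.1)ᵀ * Sh * x.1 = Sh := by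
    intro x hx
    have h1 := hL (h * x * h⁻¹) (hN h hh x hx)
    have h2 : ((h * x * h⁻¹ : GL (Fin n) F)).1 = h.1 * x.1 * (h⁻¹ : GL (Fin n) F).1 := by
      rw [Units.val_mul, Units.val_mul]
    rw [h2] at h1
    have h3 : (h⁻¹ : GL (Fin n) F).1 * h.1 = 1 := by
      rw [← Units.val_mul, inv_mul_cancel, Units.val_one]
    have h5 : (h.1 * x.1 * (h⁻¹ : GL (Fin n) F).1)ᵀ =
        ((h⁻¹ : GL (Fin n) F).1)ᵀ * (x.1)ᵀ * (h.1)ᵀ := by
      rw [Matrix.transpose_mul, Matrix.transpose_mul, Matrix.mul_assoc]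
    have h6 : (h.1)ᵀ * ((h⁻¹ : GL (Fin n) F).1)ᵀ = 1 := by
      rw [← Matrix.transpose_mul, h3, Matrix.transpose_one]
    have h7 : (x.1)ᵀ * ((h.1)ᵀ * S * h.1) * x.1 = (h.1)ᵀ * S * h.1 := by
      calc (x.1)ᵀ * ((h.1)ᵀ * S * h.1) * x.1
          = ((h.1)ᵀ * ((h⁻¹ : GL (Fin n) F).1)ᵀ) * (x.1)ᵀ * (h.1)ᵀ * S * h.1 * x.1 *
              ((h⁻¹ : GL (Fin n) F).1 * h.1) := by
            rw [h6, h3, Matrix.one_mul, Matrix.mul_one]
            simp only [Matrix.mul_assoc]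
        _ = (h.1)ᵀ * (((h⁻¹ : GL (Fin n) F).1)ᵀ * (x.1)ᵀ * (h.1)ᵀ * S *
              (h.1 * x.1 * (h⁻¹ : GL (Fin n) F).1)) * h.1 := by
            simp only [Matrix.mul_assoc]
        _ = (h.1)ᵀ * ((h.1 * x.1 * (h⁻¹ : GL (Fin n) F).1)ᵀ * S *
              (h.1 * x.1 * (h⁻¹ : GL (Fin n) F).1)) * h.1 := by rw [h5]
        _ = (h.1)ᵀ * S * h.1 := by rw [h1]
    rw [hShdef]
    exact h7
  -- the intertwiner
  have hswap : ∀ (A : Matrix (Fin n) (Fin n) F), (∀ x ∈ L, (x.1)ᵀ * A * x.1 = A) →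
      ∀ x ∈ L, A * x.1 = ((x⁻¹ : GL (Fin n) F).1)ᵀ * A := by
    intro A hA x hx
    have h1 : x.1 * (x⁻¹ : GL (Fin n) F).1 = 1 := by
      rw [← Units.val_mul, mul_inv_cancel, Units.val_one]
    calc A * x.1 = (x.1 * (x⁻¹ : GL (Fin n) F).1)ᵀ * A * x.1 := by
          rw [h1, Matrix.transpose_one, Matrix.one_mul]
      _ = ((x⁻¹ : GL (Fin n) F).1)ᵀ * ((x.1)ᵀ * A * x.1) := by
          rw [Matrix.transpose_mul]
          simp only [Matrix.mul_assoc]
      _ = ((x⁻¹ : GL (Fin n) F).1)ᵀ * A := by rw [hA x hx]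
  have hSS : S * S⁻¹ = 1 := Matrix.mul_nonsing_inv S hSu
  have hSS' : S⁻¹ * S = 1 := Matrix.nonsing_inv_mul S hSu
  have hcomm : ∀ s ∈ matrixSet L, (S⁻¹ * Sh) * s = s * (S⁻¹ * Sh) := by
    rintro _ ⟨x, hx, rfl⟩
    show (S⁻¹ * Sh) * x.1 = x.1 * (S⁻¹ * Sh)
    have e1 : S * ((S⁻¹ * Sh) * x.1) = ((x⁻¹ : GL (Fin n) F).1)ᵀ * Sh := by
      rw [← Matrix.mul_assoc, ← Matrix.mul_assoc, hSS, Matrix.one_mul]
      exact hswap Sh hLh x hx
    have e2 : S * (x.1 * (S⁻¹ * Sh)) = ((x⁻¹ : GL (Fin n) F).1)ᵀ * Sh := by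
      rw [← Matrix.mul_assoc, hswap S hL x hx, Matrix.mul_assoc, ← Matrix.mul_assoc S, hSS,
        Matrix.one_mul]
    have e3 : S * ((S⁻¹ * Sh) * x.1) = S * (x.1 * (S⁻¹ * Sh)) := e1.trans e2.symm
    have e4 := congrArg (fun X => S⁻¹ * X) e3
    simp only [← Matrix.mul_assoc S⁻¹ S, hSS', Matrix.one_mul] at e4
    exact e4
  obtain ⟨c, hc⟩ := hLa.2 (S⁻¹ * Sh) hcomm
  have hShc : Sh = c • S := by
    calc Sh = S * (S⁻¹ * Sh) := by rw [← Matrix.mul_assoc, hSS, Matrix.one_mul]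
      _ = c • S := by rw [hc, Matrix.mul_smul, Matrix.mul_one]
  have hc0 : c ≠ 0 := by
    intro h0
    have h1 : Sh.det = 0 := by
      rw [hShc, h0, zero_smul, Matrix.det_zero]
    rw [hShdef, Matrix.det_mul, Matrix.det_mul, Matrix.det_transpose] at h1
    have hh0 : (h.1).det ≠ 0 := by
      have h2 : IsUnit (h.1).det := (Matrix.isUnit_iff_isUnit_det _).1 h.isUnit
      exact h2.ne_zero
    rcases mul_eq_zero.1 h1 with h3 | h3
    · rcases mul_eq_zero.1 h3 with h4 | h4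
      · exact hh0 h4
      · exact hSdet h4
    · exact hh0 h3
  refine ⟨Units.mk0 c hc0, fun u v => ?_⟩
  rw [hS, hS, dot_mulVec_mulVec, ← hShdef, hShc, Units.val_mk0, Matrix.smul_mulVec,
    dotProduct_smul, smul_eq_mul]

/-- A non-degenerate alternating bilinear form lives in even dimension. -/
theorem even_of_symplectic (f : (Fin n → F) → (Fin n → F) → F) (hf : IsSymplecticForm f) :
    Even n := by
  have hB : (bil f hf.bilinear).IsAlt := fun v => hf.alternating v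
  have hnd : ∀ u ∈ (⊤ : Submodule F (Fin n → F)),
      (∀ v ∈ (⊤ : Submodule F (Fin n → F)), bil f hf.bilinear u v = 0) → u = 0 := by
    intro u _ hu
    by_contra hne
    obtain ⟨x, hx⟩ := (hf.nondegenerate u hne).2
    exact hx (hu x Submodule.mem_top)
  obtain ⟨k, e, g, hD⟩ := Cfsg.Agent.Lib.Helper18.exists_darboux (bil f hf.bilinear) hB
    (Module.finrank F (⊤ : Submodule F (Fin n → F))) ⊤ rfl hnd
  have h1 := hD.finrank_eq hB
  rw [finrank_top, Module.finrank_fin_fun] at h1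
  exact ⟨k, by omega⟩

variable [Fintype F]

/-- UFS: an absolutely irreducible normal subgroup fixing a symplectic form. -/
theorem UFS (hn : 3 ≤ n) (H L : Subgroup (GL (Fin n) F)) (hN : Nrm H L)
    (hLa : ActsAbsolutelyIrreducibly (matrixSet L)) (f : (Fin n → F) → (Fin n → F) → F)
    (hf : IsSymplecticForm f) (hfix : FixesForm (matrixSet L) f) : InCls H := by
  have heven : Even n := even_of_symplectic f hf
  have h4 : 4 ≤ n := by
    obtain ⟨k, hk⟩ := heven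
    omega
  refine ⟨similarityGroup f, ?_,
    le_similarity (by omega) H L hN hLa f hf.bilinear hf.nondegenerate hfix⟩
  exact Or.inr (Or.inr (Or.inr (Or.inr (Or.inr (Or.inr (Or.inr (Or.inr (Or.inr (Or.inl
    ⟨f, hf, heven, h4, rfl⟩)))))))))

end Cfsg.Agent.Lib.Helper19.ASUFS
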