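import Mathlib
import Cfsg.Prelude.Def_GeometricClasses
import Cfsg.Prelude.Def_LieClassical
import Cfsg.Agent.Lib.Helper53.SUCent
import Cfsg.Agent.Lib.Helper53.SUConj
import Cfsg.Agent.Lib.Helper53.Hilbert90Gen
import Cfsg.Agent.Lib.Helper93.SUPair

/-!
# Project SUP (helper71), piece U7

An absolutely irreducible subgroup of `GU_n(q)` fixing a non-degenerate bilinear form is
realisable over the fixed field of `x ↦ x ^ q` (Hilbert 90, `Helper53.H90.exists_twistG`).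
-/

set_option autoImplicit false
set_option linter.unusedSectionVars false

namespace Cfsg.Agent.Lib.Helper19.SUPU7

open Matrix Cfsg.Geo

variable {n : ℕ} {F : Type*} [Field F] [Fintype F] {q : ℕ}

/-- a bilinear form is given by its Gram matrix -/
theorem U7_gram (b : (Fin n → F) → (Fin n → F) → F) (hb : IsBilinearForm b) :
    ∃ G : Matrix (Fin n) (Fin n) F, ∀ u v, b u v = u ⬝ᵥ (G *ᵥ v) := by
  let B : (Fin n → F) →ₗ[F] (Fin n → F) →ₗ[F] F :=
    LinearMap.mk₂ F b hb.add_left hb.smul_left hb.add_right hb.smul_right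
  refine ⟨LinearMap.toMatrix₂' F B, fun u v => ?_⟩
  rw [← Matrix.toLinearMap₂'_apply', Matrix.toLinearMap₂'_toMatrix']
  rfl

/-- equality of the bilinear forms of two matrices gives equality of the matrices -/
theorem U7_mat_ext (M N : Matrix (Fin n) (Fin n) F)
    (h : ∀ u v : Fin n → F, u ⬝ᵥ (M *ᵥ v) = u ⬝ᵥ (N *ᵥ v)) : M = N := by
  ext i j
  have := h (Pi.single i 1) (Pi.single j 1)
  simpa [Matrix.mulVec_single_one, single_one_dotProduct] using this

/-- applying a ring automorphism entrywise commutes with `mulVec` -/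
theorem U7_map_mulVec (σ : F ≃+* F) (A : Matrix (Fin n) (Fin n) F) (w : Fin n → F) :
    (fun i => σ ((A *ᵥ w) i)) = (A.map σ) *ᵥ (fun i => σ (w i)) := by
  funext i
  simp only [Matrix.mulVec, dotProduct, map_sum, map_mul, Matrix.map_apply]

theorem U7 (hF : Fintype.card F = q ^ 2) (hn : 1 ≤ n) (L : Subgroup (GL (Fin n) F))
    (hL : L ≤ Cfsg.GU n F q) (hLa : ActsAbsolutelyIrreducibly (matrixSet L))
    (b : (Fin n → F) → (Fin n → F) → F) (hb : IsBilinearForm b) (hbn : IsNondegenerateForm b)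
    (hfix : FixesForm (matrixSet L) b) :
    ∃ F₀ : Subfield F, F₀ ≠ ⊤ ∧ RealisableOver F₀ (matrixSet L) := by
  classical
  haveI : Nonempty (Fin n) := ⟨⟨0, by omega⟩⟩
  obtain ⟨σ, hσdef⟩ : ∃ σ : F ≃+* F, σ = Cfsg.Agent.Lib.Helper53.AutPSU.frobE hF := ⟨_, rfl⟩
  have hσ : ∀ x : F, σ x = x ^ q := fun x => by rw [hσdef]; rfl
  have hσσ : ∀ x : F, σ (σ x) = x := fun x => by
    rw [hσ, hσ, Cfsg.Agent.Lib.Helper7.herm_pow_pow hF]
  have hmapmap : ∀ M : Matrix (Fin n) (Fin n) F, (M.map σ).map σ = M := by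
    intro M
    ext i j
    simp only [Matrix.map_apply, hσσ]
  have hmapmul : ∀ M N : Matrix (Fin n) (Fin n) F, (M * N).map σ = M.map σ * N.map σ := by
    intro M N
    exact Matrix.map_mul
  have hmapq : ∀ M : Matrix (Fin n) (Fin n) F, M.map (· ^ q) = M.map σ := by
    intro M
    ext i j
    simp only [Matrix.map_apply, hσ]
  obtain ⟨ξ, hξ⟩ := Cfsg.Agent.Lib.Helper93.exists_not_fixed hF
  refine ⟨Cfsg.Agent.Lib.Helper53.AutPSU.fixSubU σ, ?_, ?_⟩
  · intro htop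
    have : ξ ∈ Cfsg.Agent.Lib.Helper53.AutPSU.fixSubU σ := by rw [htop]; exact Subfield.mem_top ξ
    rw [Cfsg.Agent.Lib.Helper53.AutPSU.mem_fixSubU, hσ] at this
    exact hξ this
  -- (a) the Gram matrix
  obtain ⟨G, hG⟩ := U7_gram b hb
  have hGdet : G.det ≠ 0 := by
    intro h0
    obtain ⟨v, hv0, hv⟩ := Matrix.exists_mulVec_eq_zero_iff.2 h0
    obtain ⟨x, hx⟩ := (hbn v hv0).1
    apply hx
    rw [hG, hv, dotProduct_zero]
  have hGu : IsUnit G.det := isUnit_iff_ne_zero.2 hGdet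
  have hGG : G⁻¹ * G = 1 := Matrix.nonsing_inv_mul G hGu
  have hGG' : G * G⁻¹ = 1 := Matrix.mul_nonsing_inv G hGu
  have hfixG : ∀ x ∈ L, (x : Matrix (Fin n) (Fin n) F)ᵀ * G * (x : Matrix (Fin n) (Fin n) F)
      = G := by
    intro x hx
    apply U7_mat_ext
    intro u v
    have h1 := hfix (x : Matrix (Fin n) (Fin n) F) ⟨x, hx, rfl⟩ u v
    rw [hG, hG] at h1
    rw [← h1, ← Matrix.mulVec_mulVec, ← Matrix.mulVec_mulVec, Matrix.dotProduct_mulVec,
      Matrix.vecMul_transpose]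
  -- (b) `x^σ * G = G * x`
  have hb1 : ∀ x ∈ L, (x : Matrix (Fin n) (Fin n) F).map σ * G
      = G * (x : Matrix (Fin n) (Fin n) F) := by
    intro x hx
    have h1 := (Cfsg.Agent.Lib.Helper53.AutPSU.mem_GU_mat hF x).1 (hL hx)
    rw [hmapq] at h1
    have h2 : (x : Matrix (Fin n) (Fin n) F).map σ * (x : Matrix (Fin n) (Fin n) F)ᵀ = 1 :=
      mul_eq_one_comm.1 h1
    calc (x : Matrix (Fin n) (Fin n) F).map σ * G
        = (x : Matrix (Fin n) (Fin n) F).map σ *
            ((x : Matrix (Fin n) (Fin n) F)ᵀ * G * (x : Matrix (Fin n) (Fin n) F)) := by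
          rw [hfixG x hx]
      _ = ((x : Matrix (Fin n) (Fin n) F).map σ * (x : Matrix (Fin n) (Fin n) F)ᵀ) * G *
            (x : Matrix (Fin n) (Fin n) F) := by
          simp only [Matrix.mul_assoc]
      _ = G * (x : Matrix (Fin n) (Fin n) F) := by rw [h2, Matrix.one_mul]
  -- (c) `G^σ * G` is a scalar
  have hb2 : ∀ x ∈ L, (x : Matrix (Fin n) (Fin n) F) * G.map σ
      = G.map σ * (x : Matrix (Fin n) (Fin n) F).map σ := by
    intro x hx
    have h1 := congrArg (fun M : Matrix (Fin n) (Fin n) F => M.map σ) (hb1 x hx)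
    simp only [hmapmul, hmapmap] at h1
    exact h1
  have hcomm : ∀ s ∈ matrixSet L, (G.map σ * G) * s = s * (G.map σ * G) := by
    rintro _ ⟨x, hx, rfl⟩
    show G.map σ * G * (x : Matrix (Fin n) (Fin n) F) = (x : Matrix (Fin n) (Fin n) F) *
      (G.map σ * G)
    rw [Matrix.mul_assoc, ← hb1 x hx, ← Matrix.mul_assoc, ← Matrix.mul_assoc, hb2 x hx]
  obtain ⟨l, hl⟩ := hLa.2 (G.map σ * G) hcomm
  have hl0 : l ≠ 0 := by
    intro h0
    rw [h0, zero_smul] at hl
    have h1 : G.map σ = 0 := by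
      calc G.map σ = G.map σ * G * G⁻¹ := by rw [Matrix.mul_assoc, hGG', Matrix.mul_one]
        _ = 0 := by rw [hl, Matrix.zero_mul]
    have h2 : G = 0 := by
      rw [← hmapmap G, h1]
      ext i j
      simp
    rw [h2, Matrix.det_zero] at hGdet
    exact hGdet rfl
  -- (d) Hilbert 90
  have hAA : G⁻¹ * (G⁻¹).map σ = l⁻¹ • (1 : Matrix (Fin n) (Fin n) F) := by
    have h1 : (G⁻¹).map σ * G.map σ = 1 := by
      rw [← hmapmul, hGG]
      ext i j
      simp [Matrix.one_apply, apply_ite σ]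
    have h2 : G⁻¹ * (G⁻¹).map σ * (G.map σ * G) = 1 := by
      calc G⁻¹ * (G⁻¹).map σ * (G.map σ * G) = G⁻¹ * ((G⁻¹).map σ * G.map σ) * G := by
            simp only [Matrix.mul_assoc]
        _ = 1 := by rw [h1, Matrix.mul_one, hGG]
    rw [hl, Matrix.mul_smul, Matrix.mul_one] at h2
    rw [← h2, smul_smul, inv_mul_cancel₀ hl0, one_smul]
  have hord : orderOf σ = 2 := by
    haveI : Fact (Nat.Prime 2) := ⟨Nat.prime_two⟩
    apply orderOf_eq_prime
    · ext x
      show σ (σ x) = x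
      exact hσσ x
    · intro h1
      apply hξ
      have h2 : σ ξ = ξ := by rw [h1]; rfl
      rw [← hσ]
      exact h2
  have hT : ∀ v : Fin n → F, (Cfsg.Agent.Lib.Helper53.H90.slG σ G⁻¹)^[2] v = l⁻¹ • v := by
    intro v
    show Cfsg.Agent.Lib.Helper53.H90.slG σ G⁻¹ (Cfsg.Agent.Lib.Helper53.H90.slG σ G⁻¹ v) = _
    unfold Cfsg.Agent.Lib.Helper53.H90.slG
    rw [U7_map_mulVec]
    have h1 : (fun i => σ (σ (v i))) = v := by
      funext i
      exact hσσ (v i)
    rw [h1, Matrix.mulVec_mulVec, hAA, Matrix.smul_mulVec, Matrix.one_mulVec]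
  obtain ⟨B, c, hBu, hc0, hBc⟩ :=
    Cfsg.Agent.Lib.Helper53.H90.exists_twistG σ 2 (by norm_num) hord G⁻¹ l⁻¹ (inv_ne_zero hl0) hT
  have hBσ : B.map σ = c • (G * B) := by
    calc B.map σ = G * (G⁻¹ * B.map σ) := by rw [← Matrix.mul_assoc, hGG', Matrix.one_mul]
      _ = c • (G * B) := by rw [hBc, Matrix.mul_smul]
  have hBB : B⁻¹ * B = 1 := Matrix.nonsing_inv_mul B hBu
  have hBB' : B * B⁻¹ = 1 := Matrix.mul_nonsing_inv B hBu
  -- (e) the conjugates are fixed by `σ`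
  refine ⟨⟨B⁻¹, B, hBB, hBB'⟩, ?_⟩
  rintro _ ⟨x, hx, rfl⟩ i j
  show (B⁻¹ * (x : Matrix (Fin n) (Fin n) F) * B) i j ∈ _
  rw [Cfsg.Agent.Lib.Helper53.AutPSU.mem_fixSubU]
  obtain ⟨y, hy⟩ : ∃ y : Matrix (Fin n) (Fin n) F,
      y = B⁻¹ * (x : Matrix (Fin n) (Fin n) F) * B := ⟨_, rfl⟩
  rw [← hy]
  have hBy : B * y = (x : Matrix (Fin n) (Fin n) F) * B := by
    rw [hy, ← Matrix.mul_assoc, ← Matrix.mul_assoc, hBB', Matrix.one_mul]
  have h1 : B.map σ * y.map σ = (x : Matrix (Fin n) (Fin n) F).map σ * B.map σ := by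
    rw [← hmapmul, ← hmapmul, hBy]
  rw [hBσ, Matrix.smul_mul, Matrix.mul_smul] at h1
  have h2 : G * B * y.map σ = (x : Matrix (Fin n) (Fin n) F).map σ * (G * B) :=
    smul_right_injective _ hc0 h1
  have h3 : G * (B * y.map σ) = G * (B * y) := by
    rw [hBy, ← Matrix.mul_assoc, h2, ← Matrix.mul_assoc, hb1 x hx, Matrix.mul_assoc]
  have h4 : B * y.map σ = B * y := by
    calc B * y.map σ = G⁻¹ * (G * (B * y.map σ)) := by
          rw [← Matrix.mul_assoc, hGG, Matrix.one_mul]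
      _ = B * y := by rw [h3, ← Matrix.mul_assoc, hGG, Matrix.one_mul]
  have h5 : y.map σ = y := by
    calc y.map σ = B⁻¹ * (B * y.map σ) := by rw [← Matrix.mul_assoc, hBB, Matrix.one_mul]
      _ = y := by rw [h4, ← Matrix.mul_assoc, hBB, Matrix.one_mul]
  have h6 := congrFun (congrFun h5 i) j
  rw [Matrix.map_apply] at h6
  exact h6

end Cfsg.Agent.Lib.Helper19.SUPU7
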