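import Cfsg.Agent.Lib.Helper47.QuadDefs
import Cfsg.Agent.Lib.Helper47.GUPrime

/-!
# S2674, piece HYPMODEL (helper47's board): the hyperbolic model `F^n × F^n`, `Q(y,z) = y ⬝ z`,
with the isometry `diag(A, A⁻ᵀ)`.
-/

set_option autoImplicit false

namespace Cfsg.Agent.Lib.Helper19.QuadHyp

open Polynomial Module Matrix

universe u

variable {F : Type u} [Field F]

/-- powers of a product map -/
theorem prodMap_pow' {M₁ M₂ : Type*} [AddCommGroup M₁] [Module F M₁] [AddCommGroup M₂]
    [Module F M₂] (f : Module.End F M₁) (g : Module.End F M₂) (n : ℕ) :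
    (LinearMap.prodMap f g : Module.End F (M₁ × M₂)) ^ n = LinearMap.prodMap (f ^ n) (g ^ n) := by
  induction n with
  | zero => rw [pow_zero, pow_zero, pow_zero, LinearMap.prodMap_one]
  | succ n ih => rw [pow_succ, ih, pow_succ, pow_succ, LinearMap.prodMap_mul]

open Cfsg.Agent.Lib.Helper47

-- PIECE HYPMODEL
theorem exists_hyp_model {F : Type u} [Field F] [Fintype F] (k : ℕ)
    (A : Matrix (Fin (k + 1)) (Fin (k + 1)) F) (r : ℕ) (hr : 0 < r) (hA : A ^ r = 1)
    (hplus : IsTyp (Cfsg.quadFormPlus (k + 1) F) k 1) :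
    ∃ (M : Type u) (_ : AddCommGroup M) (_ : Module F M) (_ : FiniteDimensional F M)
      (Q : M → F) (B : M → M → F) (x : Module.End F M),
      IsQuad Q B ∧ Nondeg B ∧ (∀ v, Q (x v) = Q v) ∧ x ^ r = 1 ∧
      x.charpoly = A.charpoly * dualP (RingHom.id F) A.charpoly ∧
      finrank F M = 2 * k + 2 ∧ IsTyp Q k 1 := by
  classical
  -- `A` is invertible
  have hAu : IsUnit A := by
    obtain ⟨s, rfl⟩ : ∃ s, r = s + 1 := ⟨r - 1, by omega⟩
    rw [pow_succ] at hA
    exact IsUnit.of_mul_eq_one _ (mul_eq_one_comm.1 hA)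
  have hdet : IsUnit A.det := (Matrix.isUnit_iff_isUnit_det A).1 hAu
  have hsT : sT (RingHom.id F) A = Aᵀ := by
    ext i j
    simp [sT]
  set N : Matrix (Fin (k + 1)) (Fin (k + 1)) F := (sT (RingHom.id F) A)⁻¹ with hN
  have hN' : N = (A⁻¹)ᵀ := by rw [hN, hsT, Matrix.transpose_nonsing_inv]
  have hNr : N ^ r = 1 := by
    rw [hN', ← Matrix.transpose_pow, Matrix.inv_pow', hA, inv_one, Matrix.transpose_one]
  refine ⟨(Fin (k + 1) → F) × (Fin (k + 1) → F), inferInstance, inferInstance, inferInstance,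
    fun p => p.1 ⬝ᵥ p.2, fun p p' => p.1 ⬝ᵥ p'.2 + p'.1 ⬝ᵥ p.2,
    LinearMap.prodMap (Matrix.toLin' A) (Matrix.toLin' N), ?_, ?_, ?_, ?_, ?_, ?_, ?_⟩
  · -- IsQuad
    refine ⟨⟨?_, ?_, ?_⟩, ?_, ?_⟩
    · intro x y z
      simp only [Prod.fst_add, Prod.snd_add, add_dotProduct, dotProduct_add]
      ring
    · intro c x y
      simp only [Prod.smul_fst, Prod.smul_snd, smul_dotProduct, dotProduct_smul, smul_eq_mul]
      ring
    · intro x y
      simp only [RingHom.id_apply, one_mul]
      ring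
    · intro c v
      simp only [Prod.smul_fst, Prod.smul_snd, smul_dotProduct, dotProduct_smul, smul_eq_mul]
      ring
    · intro u v
      simp only [Prod.fst_add, Prod.snd_add, add_dotProduct, dotProduct_add]
      ring
  · -- Nondeg
    intro p hp
    ext i
    · have := hp (0, Pi.single i 1)
      simpa using this
    · have := hp (Pi.single i 1, 0)
      simpa using this
  · -- isometry
    intro v
    simp only [LinearMap.prodMap_apply, Matrix.toLin'_apply]
    rw [Matrix.dotProduct_mulVec, hN', Matrix.vecMul_transpose, Matrix.mulVec_mulVec,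
      Matrix.nonsing_inv_mul A hdet, Matrix.one_mulVec]
  · -- order
    rw [prodMap_pow', ← Matrix.toLin'_pow, ← Matrix.toLin'_pow,
      hA, hNr, Matrix.toLin'_one, LinearMap.prodMap_id]
    rfl
  · -- charpoly
    rw [LinearMap.charpoly_prodMap, Matrix.charpoly_toLin', Matrix.charpoly_toLin', hN,
      charpoly_sT_inv A hdet]
  · -- finrank
    rw [Module.finrank_prod, Module.finrank_fin_fun]
    omega
  · -- type
    refine IsTyp.of_equiv (Equiv.sumArrowEquivProdArrow (Fin (k + 1)) (Fin (k + 1)) F) ?_ hplus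
    intro v
    rfl

end Cfsg.Agent.Lib.Helper19.QuadHyp
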