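import Mathlib
import Cfsg.Agent.Lib.Helper48.StB

/-!
# S2401, piece BR2 (helper48's board): `G` is generated by `U` and the simple `w_{a,a+1}(t)`
-/

set_option autoImplicit false

namespace Cfsg.Agent.Lib.Helper48.St

open Cfsg.Agent.Lib.Helper48 Matrix

variable {K : Type*} [Field K] {G : Type*} [Group G] {n : ℕ}
variable {X : Fin n → Fin n → K → G}

theorem gen_UW (hX : StRel X) (hW : WMon X)
    (hgen : Subgroup.closure {g | ∃ i j t, i ≠ j ∧ g = X i j t} = ⊤) :
    Subgroup.closure ((stU X : Set G) ∪
      {g | ∃ (a b : Fin n) (t : K), a.val + 1 = b.val ∧ t ≠ 0 ∧ g = stW X a b t}) = ⊤ := by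
  set C : Subgroup G := Subgroup.closure ((stU X : Set G) ∪
      {g | ∃ (a b : Fin n) (t : K), a.val + 1 = b.val ∧ t ≠ 0 ∧ g = stW X a b t}) with hC
  have hUC : stU X ≤ C := by
    intro x hx
    exact Subgroup.subset_closure (Or.inl hx)
  have hpos : ∀ i j : Fin n, i < j → ∀ t : K, X i j t ∈ C := by
    intro i j hij t
    exact hUC (Subgroup.subset_closure ⟨i, j, t, hij, rfl⟩)
  have hneg : ∀ d : ℕ, ∀ i j : Fin n, i.val = j.val + (d + 1) → ∀ t : K, X i j t ∈ C := by
    intro d
    induction d using Nat.strong_induction_on with
    | _ d ih =>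
      intro i j hd t
      have hji : j ≠ i := by
        intro h
        rw [h] at hd
        omega
      rcases Nat.eq_zero_or_pos d with hd0 | hdpos
      · -- adjacent
        subst hd0
        have hw : stW X j i 1 ∈ C :=
          Subgroup.subset_closure (Or.inr ⟨j, i, 1, by omega, one_ne_zero, rfl⟩)
        have hx : X j i (-t) ∈ C := hpos j i (by rw [Fin.lt_def]; omega) (-t)
        have h := (hW j i hji 1 one_ne_zero).2 j i hji (-t)
        rw [Equiv.swap_apply_left, Equiv.swap_apply_right] at h
        have hc : stM j i (1 : K) j * (stM j i (1 : K) i)⁻¹ * (-t) = t := by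
          unfold stM
          rw [if_pos rfl, if_neg hji.symm, if_pos rfl]
          simp
        rw [hc] at h
        rw [← h]
        exact mul_mem (mul_mem hw hx) (inv_mem hw)
      · -- pick `k = j + 1`
        have hk : j.val + 1 < n := by
          have := i.2
          omega
        set k : Fin n := ⟨j.val + 1, hk⟩ with hkdef
        have hik : i ≠ k := by
          intro h
          have : i.val = k.val := congrArg Fin.val h
          simp only [hkdef] at this
          omega
        have hkj : k ≠ j := by
          intro h
          have : k.val = j.val := congrArg Fin.val h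
          simp only [hkdef] at this
          omega
        have h1 : X i k t ∈ C := ih (d - 1) (by omega) i k (by simp only [hkdef]; omega) t
        have h2 : X k j 1 ∈ C := ih 0 hdpos k j (by simp only [hkdef]) 1
        have h3 := hX.comm3 i k j hik hkj hji.symm t 1
        rw [mul_one] at h3
        rw [← h3]
        exact mul_mem (mul_mem (mul_mem h1 h2) (inv_mem h1)) (inv_mem h2)
  rw [eq_top_iff, ← hgen, Subgroup.closure_le]
  rintro x ⟨i, j, t, hij, rfl⟩
  rcases lt_or_gt_of_ne hij with h | h
  · exact hpos i j h t
  · obtain ⟨d, hd⟩ : ∃ d, i.val = j.val + (d + 1) := by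
      rw [Fin.lt_def] at h
      exact ⟨i.val - j.val - 1, by omega⟩
    exact hneg d i j hd t

end Cfsg.Agent.Lib.Helper48.St
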