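import Mathlib
import Cfsg.Prelude.Def_GeometricClasses
import Cfsg.Prelude.Def_LieClassical
import Cfsg.Agent.Lib.Helper71.Asch5
import Cfsg.Agent.Lib.Helper82.ASB8UNITS
import Cfsg.Agent.Lib.Helper97.U9NF3U
import Cfsg.Agent.Lib.Helper44.BADDefs

/-! Project BAD (helper44; sub-project of helper49's SUG = S5663), piece GUIN (helper19):
a tensor product of two unitary matrices is an isometry. -/

set_option autoImplicit false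

namespace Cfsg.Agent.Lib.Helper44.BAD

open Matrix Cfsg.Geo Cfsg.Agent.Lib.Helper71.Asch
open scoped Kronecker

variable {n : ℕ} {F : Type*} [Field F] [Fintype F] {q : ℕ}

omit [Fintype F] in
/-- a matrix `M` with `Mᵀ * M.map σ = 1` preserves `Σ x_k * σ (y_k)` -/
theorem GUIN_aux {κ : Type} [Fintype κ] [DecidableEq κ] (σ : F →+* F) (M : Matrix κ κ F)
    (hM : Mᵀ * M.map σ = 1) (x y : κ → F) :
    ∑ k, (M *ᵥ x) k * σ ((M *ᵥ y) k) = ∑ k, x k * σ (y k) := by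
  have h1 : (fun k => σ ((M *ᵥ y) k)) = (M.map σ) *ᵥ (fun k => σ (y k)) := by
    funext k
    exact RingHom.map_mulVec σ M y k
  calc ∑ k, (M *ᵥ x) k * σ ((M *ᵥ y) k) = (M *ᵥ x) ⬝ᵥ (fun k => σ ((M *ᵥ y) k)) := rfl
    _ = (x ᵥ* Mᵀ) ⬝ᵥ ((M.map σ) *ᵥ (fun k => σ (y k))) := by
        rw [h1, Matrix.vecMul_transpose]
    _ = x ⬝ᵥ (Mᵀ *ᵥ ((M.map σ) *ᵥ (fun k => σ (y k)))) :=
        (Matrix.dotProduct_mulVec x Mᵀ _).symm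
    _ = x ⬝ᵥ (fun k => σ (y k)) := by rw [Matrix.mulVec_mulVec, hM, Matrix.one_mulVec]
    _ = ∑ k, x k * σ (y k) := rfl

omit [Fintype F] in
/-- the Kronecker product of two unitary matrices is unitary -/
theorem GUIN_kron (σ : F →+* F) (a b : Matrix (Fin 3) (Fin 3) F) (ha : aᵀ * a.map σ = 1)
    (hb : bᵀ * b.map σ = 1) : (a ⊗ₖ b)ᵀ * (a ⊗ₖ b).map σ = 1 := by
  have h1 : (a ⊗ₖ b)ᵀ = aᵀ ⊗ₖ bᵀ := by
    ext ⟨i, j⟩ ⟨k, l⟩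
    simp [Matrix.kroneckerMap_apply]
  have h2 : (a ⊗ₖ b).map σ = a.map σ ⊗ₖ b.map σ := by
    ext ⟨i, j⟩ ⟨k, l⟩
    simp [Matrix.kroneckerMap_apply]
  rw [h1, h2, ← Matrix.mul_kronecker_mul, ha, hb, Matrix.one_kronecker_one]

/-- GUIN: a tensor product of two unitary matrices is an isometry. -/
theorem GUIN (hF : Fintype.card F = q ^ 2) (e : Fin n ≃ Fin 3 × Fin 3) (P' : GL (Fin n) F) (c : F)
    (hc : c ≠ 0) (hstd : StdF q e P' c) (g : GL (Fin n) F) (a b : Matrix (Fin 3) (Fin 3) F)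
    (ha : a ∈ bU F q) (hb : b ∈ bU F q) (hg : g.1 = tmat e P' a b) : g ∈ Cfsg.GU n F q := by
  classical
  have ha' : aᵀ * a.map (Cfsg.Agent.Lib.Helper44.U9.NF3U_hom hF) = 1 := ha
  have hb' : bᵀ * b.map (Cfsg.Agent.Lib.Helper44.U9.NF3U_hom hF) = 1 := hb
  have hK := GUIN_kron (Cfsg.Agent.Lib.Helper44.U9.NF3U_hom hF) a b ha' hb'
  have hgw : ∀ w : Fin n → F, g.1 *ᵥ w =
      P'.1 *ᵥ (((a ⊗ₖ b) *ᵥ (((P'⁻¹ : GL (Fin n) F).1 *ᵥ w) ∘ e.symm)) ∘ e) := by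
    intro w
    rw [hg]
    unfold tmat
    rw [← Matrix.mulVec_mulVec, ← Matrix.mulVec_mulVec, Matrix.reindex_apply,
      Matrix.submatrix_mulVec_equiv]
    simp
  have hw : ∀ w : Fin n → F,
      w = P'.1 *ᵥ ((((P'⁻¹ : GL (Fin n) F).1 *ᵥ w) ∘ e.symm) ∘ e) := by
    intro w
    have h1 : (((P'⁻¹ : GL (Fin n) F).1 *ᵥ w) ∘ e.symm) ∘ e = (P'⁻¹ : GL (Fin n) F).1 *ᵥ w := by
      funext i
      simp
    rw [h1, Matrix.mulVec_mulVec, ← Units.val_mul, mul_inv_cancel, Units.val_one,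
      Matrix.one_mulVec]
  intro u v
  show Cfsg.hermForm n F q (g.1 *ᵥ u) (g.1 *ᵥ v) = Cfsg.hermForm n F q u v
  calc Cfsg.hermForm n F q (g.1 *ᵥ u) (g.1 *ᵥ v)
      = Cfsg.hermForm n F q
          (P'.1 *ᵥ (((a ⊗ₖ b) *ᵥ (((P'⁻¹ : GL (Fin n) F).1 *ᵥ u) ∘ e.symm)) ∘ e))
          (P'.1 *ᵥ (((a ⊗ₖ b) *ᵥ (((P'⁻¹ : GL (Fin n) F).1 *ᵥ v) ∘ e.symm)) ∘ e)) := by
        rw [hgw u, hgw v]
    _ = c * ∑ k, ((a ⊗ₖ b) *ᵥ (((P'⁻¹ : GL (Fin n) F).1 *ᵥ u) ∘ e.symm)) k *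
          (((a ⊗ₖ b) *ᵥ (((P'⁻¹ : GL (Fin n) F).1 *ᵥ v) ∘ e.symm)) k) ^ q := hstd _ _
    _ = c * ∑ k, (((P'⁻¹ : GL (Fin n) F).1 *ᵥ u) ∘ e.symm) k *
          ((((P'⁻¹ : GL (Fin n) F).1 *ᵥ v) ∘ e.symm) k) ^ q := by
        congr 1
        exact GUIN_aux (Cfsg.Agent.Lib.Helper44.U9.NF3U_hom hF) (a ⊗ₖ b) hK _ _
    _ = Cfsg.hermForm n F q (P'.1 *ᵥ ((((P'⁻¹ : GL (Fin n) F).1 *ᵥ u) ∘ e.symm) ∘ e))
          (P'.1 *ᵥ ((((P'⁻¹ : GL (Fin n) F).1 *ᵥ v) ∘ e.symm) ∘ e)) := (hstd _ _).symm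
    _ = Cfsg.hermForm n F q u v := by rw [← hw u, ← hw v]

end Cfsg.Agent.Lib.Helper44.BAD
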