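import Mathlib

/-!
# B&G Section 10, pieces Q10D and Q10E (helper15's board, for S1413): pure Sylow arguments
from the fusion-control hypothesis `hc`.
-/

set_option autoImplicit false

namespace Cfsg.Agent.Lib.Helper19.BG10

universe u

variable {G : Type u} [Group G] [Finite G]

omit [Finite G] in
private theorem q10_mem_cj (g : G) (H : Subgroup G) (x : G) :
    x ∈ H.map (MulAut.conj g).toMonoidHom ↔ g⁻¹ * x * g ∈ H := by
  rw [Subgroup.mem_map]
  constructor
  · rintro ⟨q, hq, rfl⟩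
    simp only [MulEquiv.coe_toMonoidHom, MulAut.conj_apply]
    have : g⁻¹ * (g * q * g⁻¹) * g = q := by group
    rw [this]; exact hq
  · intro h
    refine ⟨g⁻¹ * x * g, h, ?_⟩
    simp only [MulEquiv.coe_toMonoidHom, MulAut.conj_apply]
    group

omit [Finite G] in
private theorem q10_cj_eq_self_iff (g : G) (H : Subgroup G) :
    H.map (MulAut.conj g).toMonoidHom = H ↔ g ∈ Subgroup.normalizer (H : Set G) := by
  rw [Subgroup.mem_normalizer_iff'']
  constructor
  · intro h x
    rw [← q10_mem_cj, h]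
  · intro h
    ext x
    rw [q10_mem_cj]
    exact (h x).symm

omit [Finite G] in
private theorem q10_cj_mul (g h : G) (H : Subgroup G) :
    H.map (MulAut.conj (g * h)).toMonoidHom =
      (H.map (MulAut.conj h).toMonoidHom).map (MulAut.conj g).toMonoidHom := by
  ext x
  rw [q10_mem_cj, q10_mem_cj, q10_mem_cj]
  have : (g * h)⁻¹ * x * (g * h) = h⁻¹ * (g⁻¹ * x * g) * h := by group
  rw [this]

private theorem q10_exists_cj_le (p : ℕ) [Fact p.Prime] (P : Sylow p G) (R : Subgroup G)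
    (hR : IsPGroup p R) : ∃ g : G, R.map (MulAut.conj g).toMonoidHom ≤ (P : Subgroup G) := by
  obtain ⟨P', hP'⟩ := hR.exists_le_sylow
  obtain ⟨g, hg⟩ := MulAction.exists_smul_eq G P' P
  refine ⟨g, ?_⟩
  intro x hx
  rw [q10_mem_cj] at hx
  have h1 : g⁻¹ * x * g ∈ (P' : Subgroup G) := hP' hx
  rw [← hg, Sylow.coe_subgroup_smul, Subgroup.mem_pointwise_smul_iff_inv_smul_mem]
  simpa [MulAut.smul_def, MulAut.conj_inv_apply] using h1

/-- Q10E -/
theorem bg10_10e (p : ℕ) [Fact p.Prime] (P : Sylow p G)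
    (hc : ∀ (Q : Subgroup G) (x : G), Q ≤ (P : Subgroup G) →
        Q.map (MulAut.conj x).toMonoidHom ≤ (P : Subgroup G) →
        ∃ y ∈ Subgroup.normalizer ((P : Subgroup G) : Set G),
          Q.map (MulAut.conj x).toMonoidHom = Q.map (MulAut.conj y).toMonoidHom)
    (R Q : Subgroup G) (hR : IsPGroup p R) (hQ : Q ≤ (P : Subgroup G) ⊓ R)
    (hN : Subgroup.normalizer ((P : Subgroup G) : Set G) ≤ Subgroup.normalizer (Q : Set G)) :
    Subgroup.normalizer (R : Set G) ≤ Subgroup.normalizer (Q : Set G) := by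
  have hQP : Q ≤ (P : Subgroup G) := hQ.trans inf_le_left
  have hQR : Q ≤ R := hQ.trans inf_le_right
  -- weak closure
  have hW : ∀ x : G, Q.map (MulAut.conj x).toMonoidHom ≤ (P : Subgroup G) →
      Q.map (MulAut.conj x).toMonoidHom = Q := by
    intro x hx
    obtain ⟨y, hy, e⟩ := hc Q x hQP hx
    rw [e]
    exact (q10_cj_eq_self_iff y Q).2 (hN hy)
  obtain ⟨g, hg⟩ := q10_exists_cj_le p P R hR
  have hgQ : Q.map (MulAut.conj g).toMonoidHom = Q :=
    hW g ((Subgroup.map_mono hQR).trans hg)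
  intro n hn
  have hnR : R.map (MulAut.conj n).toMonoidHom = R := (q10_cj_eq_self_iff n R).2 hn
  have h1 : Q.map (MulAut.conj (g * n)).toMonoidHom ≤ (P : Subgroup G) := by
    rw [q10_cj_mul]
    refine (Subgroup.map_mono ?_).trans hg
    rw [← hnR]
    exact Subgroup.map_mono hQR
  have h2 := hW (g * n) h1
  rw [q10_cj_mul] at h2
  have h3 : (Q.map (MulAut.conj n).toMonoidHom).map (MulAut.conj g).toMonoidHom =
      Q.map (MulAut.conj g).toMonoidHom := by rw [h2, hgQ]
  have h4 : Q.map (MulAut.conj n).toMonoidHom = Q :=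
    Subgroup.map_injective (MulAut.conj g).injective h3
  exact (q10_cj_eq_self_iff n Q).1 h4

/-- Q10D -/
theorem bg10_10d (p : ℕ) [Fact p.Prime] (P : Sylow p G)
    (hc : ∀ (Q : Subgroup G) (x : G), Q ≤ (P : Subgroup G) →
        Q.map (MulAut.conj x).toMonoidHom ≤ (P : Subgroup G) →
        ∃ y ∈ Subgroup.normalizer ((P : Subgroup G) : Set G),
          Q.map (MulAut.conj x).toMonoidHom = Q.map (MulAut.conj y).toMonoidHom)
    (Q : Subgroup G) (hQ : Q ≤ (P : Subgroup G)) :
    ¬ p ∣ ((P : Subgroup G) ⊓ Subgroup.normalizer (Q : Set G)).relIndex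
        (Subgroup.normalizer (Q : Set G)) := by
  set N : Subgroup G := Subgroup.normalizer (Q : Set G) with hNdef
  set D : Subgroup G := (P : Subgroup G) ⊓ N with hDdef
  have hQN : Q ≤ N := Subgroup.le_normalizer
  have hDN : D ≤ N := inf_le_right
  have hDp : IsPGroup p (D.subgroupOf N) := by
    have h1 : IsPGroup p D := P.isPGroup'.to_le inf_le_left
    exact h1.comap_of_injective N.subtype (Subgroup.subtype_injective N)
  obtain ⟨S₀, hS₀⟩ := hDp.exists_le_sylow
  set S : Subgroup G := (S₀ : Subgroup N).map N.subtype with hSdef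
  have hSN : S ≤ N := Subgroup.map_subtype_le _
  have hDS : D ≤ S := by
    intro x hx
    exact ⟨⟨x, hDN hx⟩, hS₀ (Subgroup.mem_subgroupOf.2 hx), rfl⟩
  have hSp : IsPGroup p S := S₀.isPGroup'.map N.subtype
  obtain ⟨g, hg⟩ := q10_exists_cj_le p P S hSp
  have hQS : Q ≤ S := fun x hx => hDS ⟨hQ hx, hQN hx⟩
  obtain ⟨y, hy, e⟩ := hc Q g hQ ((Subgroup.map_mono hQS).trans hg)
  have hyP : ((P : Subgroup G)).map (MulAut.conj y⁻¹).toMonoidHom = (P : Subgroup G) :=
    (q10_cj_eq_self_iff y⁻¹ _).2 (inv_mem hy)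
  -- `n = y⁻¹ g` normalises `Q`
  have hnQ : Q.map (MulAut.conj (y⁻¹ * g)).toMonoidHom = Q := by
    rw [q10_cj_mul, e, ← q10_cj_mul, inv_mul_cancel]
    ext x
    rw [q10_mem_cj]
    simp
  have hn : y⁻¹ * g ∈ N := (q10_cj_eq_self_iff _ Q).1 hnQ
  have hnS : S.map (MulAut.conj (y⁻¹ * g)).toMonoidHom ≤ D := by
    refine le_inf ?_ ?_
    · rw [q10_cj_mul, ← hyP]
      exact Subgroup.map_mono hg
    · intro x hx
      rw [q10_mem_cj] at hx
      have h1 := hSN hx
      have : x = (y⁻¹ * g) * ((y⁻¹ * g)⁻¹ * x * (y⁻¹ * g)) * (y⁻¹ * g)⁻¹ := by group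
      rw [this]
      exact mul_mem (mul_mem hn h1) (inv_mem hn)
  have hcard : Nat.card S ≤ Nat.card D := by
    have h1 : Nat.card (S.map (MulAut.conj (y⁻¹ * g)).toMonoidHom) = Nat.card S :=
      Subgroup.card_map_of_injective (MulAut.conj (y⁻¹ * g)).injective
    rw [← h1]
    exact Subgroup.card_le_of_le hnS
  have hDSeq : D = S := Subgroup.eq_of_le_of_card_ge hDS hcard
  have hsub : D.subgroupOf N = (S₀ : Subgroup N) := by
    rw [hDSeq, hSdef]
    exact Subgroup.comap_map_eq_self_of_injective (Subgroup.subtype_injective N) _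
  unfold Subgroup.relIndex
  rw [hsub]
  exact S₀.not_dvd_index

end Cfsg.Agent.Lib.Helper19.BG10
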