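import Cfsg.Agent.Lib.Helper19.BSWZCore

/-!
# Piece ZR of S0508 (helper46's board): `Q` is regular on the cosets of `N(Q)` other than
`N(Q)` itself
-/

set_option autoImplicit false

namespace Cfsg.Agent.Lib.Helper46.BSW

open Cfsg

universe u

variable {G : Type u} [Group G]

/-- Piece ZR : `Q` is regular on the cosets of `N(Q)` other than `N(Q)` itself. -/
theorem concl_regular [Finite G] (Q D : Subgroup G)
    (hcent : ∀ x ∈ Q, x ≠ 1 → Subgroup.centralizer ({x} : Set G) = Q)
    (hD : 2 * Nat.card D + 1 = Nat.card Q) (hQD : Q ⊓ D = ⊥)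
    (hN : Subgroup.normalizer (Q : Set G) = Q ⊔ D)
    (hNcard : Nat.card (Subgroup.normalizer (Q : Set G)) = Nat.card Q * Nat.card D)
    (hidx : (Subgroup.normalizer (Q : Set G)).index = Nat.card Q + 1) :
    ∀ y z : G ⧸ Subgroup.normalizer (Q : Set G),
      y ≠ ((1 : G) : G ⧸ Subgroup.normalizer (Q : Set G)) →
      z ≠ ((1 : G) : G ⧸ Subgroup.normalizer (Q : Set G)) →
      ∃! u : Q, (u : G) • y = z :=
  Cfsg.Agent.Lib.Helper19.BSWZ.regular_act Q D hcent hD hQD hN hidx

end Cfsg.Agent.Lib.Helper46.BSW
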