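import Mathlib
import Cfsg.Prelude.Def_LieExceptional

/-!
# Piece Z of S0508 (helper46's board), core: from the Brauer–Suzuki–Wall conclusion to a
Zassenhaus group on the cosets of `N(Q)` with `Q` a regular abelian normal subgroup of the
point stabiliser.
-/

set_option autoImplicit false

namespace Cfsg.Agent.Lib.Helper19.BSWZ

universe u

variable {G : Type u} [Group G]

open MulAction

/-- `|Q ⊔ D| = |Q| |D|` when `D` normalises `Q` and `Q ⊓ D = ⊥`. -/
theorem card_sup (Q D : Subgroup G) (hD : D ≤ Subgroup.normalizer (Q : Set G))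
    (hQD : Q ⊓ D = ⊥) : Nat.card ↥(Q ⊔ D) = Nat.card Q * Nat.card D := by
  have hcoe := Subgroup.coe_mul_of_right_le_normalizer_left Q D hD
  rw [← Nat.card_prod]
  symm
  refine Nat.card_congr (Equiv.ofBijective
    (fun p : Q × D => (⟨(p.1 : G) * (p.2 : G), by
      have : (p.1 : G) * (p.2 : G) ∈ ((Q ⊔ D : Subgroup G) : Set G) := by
        rw [hcoe]
        exact Set.mul_mem_mul p.1.2 p.2.2
      exact this⟩ : ↥(Q ⊔ D))) ⟨?_, ?_⟩)
  · intro p p' h
    exact Subgroup.mul_injective_of_disjoint (disjoint_iff.2 hQD) (congrArg Subtype.val h)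
  · rintro ⟨x, hx⟩
    have hx' : x ∈ ((Q ⊔ D : Subgroup G) : Set G) := hx
    rw [hcoe] at hx'
    obtain ⟨a, ha, d, hd, rfl⟩ := hx'
    exact ⟨(⟨a, ha⟩, ⟨d, hd⟩), rfl⟩

/-- `Q` is abelian. -/
theorem comm_of_cent (Q : Subgroup G)
    (hcent : ∀ x ∈ Q, x ≠ 1 → Subgroup.centralizer ({x} : Set G) = Q) :
    ∀ a ∈ Q, ∀ b ∈ Q, a * b = b * a := by
  intro a ha b hb
  by_cases hb1 : b = 1
  · rw [hb1, mul_one, one_mul]
  · have : a ∈ Subgroup.centralizer ({b} : Set G) := by rw [hcent b hb hb1]; exact ha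
    exact Subgroup.mem_centralizer_singleton_iff.1 this

/-- `Q` is a TI-subgroup. -/
theorem ti_of_cent (Q : Subgroup G)
    (hcent : ∀ x ∈ Q, x ≠ 1 → Subgroup.centralizer ({x} : Set G) = Q)
    (g : G) (hg : g ∉ Subgroup.normalizer (Q : Set G)) (y : G) (hy : y ∈ Q)
    (hy' : g⁻¹ * y * g ∈ Q) : y = 1 := by
  by_contra hy1
  apply hg
  have hy'1 : g⁻¹ * y * g ≠ 1 := by
    intro h
    apply hy1
    have : y = g * (g⁻¹ * y * g) * g⁻¹ := by group
    rw [this, h]
    group
  have h1 := hcent y hy hy1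
  have h2 := hcent _ hy' hy'1
  rw [Subgroup.mem_normalizer_iff]
  intro n
  constructor
  · intro hn
    rw [← h2, Subgroup.mem_centralizer_singleton_iff] at hn
    rw [← h1, Subgroup.mem_centralizer_singleton_iff]
    have : g * n * g⁻¹ * y = g * (n * (g⁻¹ * y * g)) * g⁻¹ := by group
    rw [this, hn]
    group
  · intro hn
    rw [← h1, Subgroup.mem_centralizer_singleton_iff] at hn
    rw [← h2, Subgroup.mem_centralizer_singleton_iff]
    have : n * (g⁻¹ * y * g) = g⁻¹ * (g * n * g⁻¹ * y) * g := by group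
    rw [this, hn]
    group

/-- An element of `Q ⊔ D` of order dividing `|Q|` lies in `Q`. -/
theorem mem_of_pow [Finite G] (Q D : Subgroup G) (hD : D ≤ Subgroup.normalizer (Q : Set G))
    (hQD : Q ⊓ D = ⊥) (hcop : (Nat.card Q).Coprime (Nat.card D))
    (y : G) (hy : y ∈ Q ⊔ D) (hpow : y ^ Nat.card Q = 1) : y ∈ Q := by
  have hcoe := Subgroup.coe_mul_of_right_le_normalizer_left Q D hD
  have hy' : y ∈ ((Q ⊔ D : Subgroup G) : Set G) := hy
  rw [hcoe] at hy'
  obtain ⟨a, ha', d, hd', hyeq⟩ := hy'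
  have ha : a ∈ Q := ha'
  have hd : d ∈ D := hd'
  have hyeq' : a * d = y := hyeq
  subst hyeq'
  -- `(a d)^k ∈ Q d^k`
  have key : ∀ k : ℕ, ∃ b ∈ Q, (a * d) ^ k = b * d ^ k := by
    intro k
    induction k with
    | zero => exact ⟨1, one_mem _, by simp⟩
    | succ k ih =>
      obtain ⟨b, hb, e⟩ := ih
      refine ⟨b * (d ^ k * a * (d ^ k)⁻¹), mul_mem hb ?_, ?_⟩
      · exact (Subgroup.mem_normalizer_iff.1 (hD (pow_mem hd k)) a).1 ha
      · rw [pow_succ, e, pow_succ]
        group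
  obtain ⟨b, hb, e⟩ := key (Nat.card Q)
  rw [hpow] at e
  have hdq : d ^ Nat.card Q ∈ Q ⊓ D := by
    refine Subgroup.mem_inf.2 ⟨?_, pow_mem hd _⟩
    have : d ^ Nat.card Q = b⁻¹ := eq_inv_of_mul_eq_one_right e.symm
    rw [this]
    exact inv_mem hb
  rw [hQD, Subgroup.mem_bot] at hdq
  have hdD : d ^ Nat.card D = 1 := by
    have := pow_card_eq_one' (G := D) (x := ⟨d, hd⟩)
    exact congrArg Subtype.val this
  have hd1 : d = 1 := by
    have h1 := orderOf_dvd_of_pow_eq_one hdq
    have h2 := orderOf_dvd_of_pow_eq_one hdD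
    have h3 : orderOf d ∣ 1 := by
      have := Nat.dvd_gcd h1 h2
      rwa [hcop] at this
    exact orderOf_eq_one_iff.1 (Nat.dvd_one.1 h3)
  rw [hd1, mul_one]
  exact ha


/-- `Q` acts freely on the cosets of `N(Q)` other than `N(Q)` itself. -/
theorem free_act [Finite G] (Q D : Subgroup G)
    (hcent : ∀ x ∈ Q, x ≠ 1 → Subgroup.centralizer ({x} : Set G) = Q)
    (hD : 2 * Nat.card D + 1 = Nat.card Q) (hQD : Q ⊓ D = ⊥)
    (hN : Subgroup.normalizer (Q : Set G) = Q ⊔ D) :
    ∀ u ∈ Q, ∀ y : G ⧸ Subgroup.normalizer (Q : Set G),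
      y ≠ ((1 : G) : G ⧸ Subgroup.normalizer (Q : Set G)) → u • y = y → u = 1 := by
  have hDle : D ≤ Subgroup.normalizer (Q : Set G) := by rw [hN]; exact le_sup_right
  have hcop : (Nat.card Q).Coprime (Nat.card D) := by
    rw [← hD]
    simp
  intro u hu y hy huy
  induction y using QuotientGroup.induction_on with
  | H g =>
    have hg : g ∉ Subgroup.normalizer (Q : Set G) := by
      intro hg
      apply hy
      rw [QuotientGroup.eq, mul_one]
      exact inv_mem hg
    rw [MulAction.Quotient.smul_mk, QuotientGroup.eq, smul_eq_mul] at huy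
    have h1 : g⁻¹ * u⁻¹ * g ∈ Q ⊔ D := by
      rw [← hN]
      have : g⁻¹ * u⁻¹ * g = (u * g)⁻¹ * g := by group
      rw [this]; exact huy
    have h2 : (g⁻¹ * u⁻¹ * g) ^ Nat.card Q = 1 := by
      have h3 : (g⁻¹ * u⁻¹ * g) ^ Nat.card Q = g⁻¹ * (u⁻¹) ^ Nat.card Q * g := by
        have := conj_pow (a := g⁻¹) (b := u⁻¹) (i := Nat.card Q)
        rw [inv_inv] at this
        exact this
      have h4 : (u⁻¹) ^ Nat.card Q = 1 := by
        have := pow_card_eq_one' (G := Q) (x := ⟨u⁻¹, inv_mem hu⟩)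
        exact congrArg Subtype.val this
      rw [h3, h4]; group
    have h5 := mem_of_pow Q D hDle hQD hcop _ h1 h2
    have h6 := ti_of_cent Q hcent g hg u⁻¹ (inv_mem hu) h5
    exact inv_eq_one.1 h6

/-- `Q` acts regularly on the cosets of `N(Q)` other than `N(Q)` itself. -/
theorem regular_act [Finite G] (Q D : Subgroup G)
    (hcent : ∀ x ∈ Q, x ≠ 1 → Subgroup.centralizer ({x} : Set G) = Q)
    (hD : 2 * Nat.card D + 1 = Nat.card Q) (hQD : Q ⊓ D = ⊥)
    (hN : Subgroup.normalizer (Q : Set G) = Q ⊔ D)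
    (hidx : Nat.card (G ⧸ Subgroup.normalizer (Q : Set G)) = Nat.card Q + 1) :
    ∀ y z : G ⧸ Subgroup.normalizer (Q : Set G),
      y ≠ ((1 : G) : G ⧸ Subgroup.normalizer (Q : Set G)) →
      z ≠ ((1 : G) : G ⧸ Subgroup.normalizer (Q : Set G)) → ∃! u : Q, (u : G) • y = z := by
  have hQle : Q ≤ Subgroup.normalizer (Q : Set G) := Subgroup.le_normalizer
  have hfree := free_act Q D hcent hD hQD hN
  intro y z hy hz
  have hstab : ∀ u ∈ Q, u • ((1 : G) : G ⧸ Subgroup.normalizer (Q : Set G)) =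
      ((1 : G) : G ⧸ Subgroup.normalizer (Q : Set G)) := by
    intro u hu
    have : u ∈ MulAction.stabilizer G ((1 : G) : G ⧸ Subgroup.normalizer (Q : Set G)) := by
      rw [MulAction.stabilizer_quotient]; exact hQle hu
    exact this
  have hpres : ∀ u ∈ Q, u • y ≠ ((1 : G) : G ⧸ Subgroup.normalizer (Q : Set G)) := by
    intro u hu h
    apply hy
    rw [← hstab u hu] at h
    exact smul_left_cancel u h
  let f : Q → {w : G ⧸ Subgroup.normalizer (Q : Set G) //
      w ≠ ((1 : G) : G ⧸ Subgroup.normalizer (Q : Set G))} :=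
    fun u => ⟨(u : G) • y, hpres u u.2⟩
  have hfinj : Function.Injective f := by
    intro u u' h
    have h1 : (u : G) • y = (u' : G) • y := congrArg Subtype.val h
    have h2 : ((u' : G)⁻¹ * (u : G)) • y = y := by
      rw [mul_smul, h1, inv_smul_smul]
    have h3 := hfree _ (mul_mem (inv_mem u'.2) u.2) y hy h2
    exact Subtype.ext (inv_mul_eq_one.1 h3).symm
  have hfcard : Nat.card Q = Nat.card {w : G ⧸ Subgroup.normalizer (Q : Set G) //
      w ≠ ((1 : G) : G ⧸ Subgroup.normalizer (Q : Set G))} := by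
    classical
    haveI := Fintype.ofFinite (G ⧸ Subgroup.normalizer (Q : Set G))
    have h1 := Set.card_ne_eq ((1 : G) : G ⧸ Subgroup.normalizer (Q : Set G))
    rw [Nat.card_eq_fintype_card] at hidx
    rw [Nat.card_eq_fintype_card (α := {w : G ⧸ Subgroup.normalizer (Q : Set G) //
      w ≠ ((1 : G) : G ⧸ Subgroup.normalizer (Q : Set G))})]
    have h2 : Fintype.card {w : G ⧸ Subgroup.normalizer (Q : Set G) //
        w ≠ ((1 : G) : G ⧸ Subgroup.normalizer (Q : Set G))} =
        Fintype.card (G ⧸ Subgroup.normalizer (Q : Set G)) - 1 := by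
      convert h1
    rw [h2, hidx]
    omega
  have hbij := (Nat.bijective_iff_injective_and_card f).2 ⟨hfinj, hfcard⟩
  obtain ⟨u, hu⟩ := hbij.2 ⟨z, hz⟩
  refine ⟨u, congrArg Subtype.val hu, ?_⟩
  intro u' hu'
  exact hfinj (Subtype.ext (by rw [hu]; exact hu'))


/-- The action on the cosets of `N(Q)`: the main properties. -/
theorem action_props [Finite G] (Q D : Subgroup G)
    (hcard : 2 * Nat.card G = Nat.card Q * (Nat.card Q + 1) * (Nat.card Q - 1))
    (hcent : ∀ x ∈ Q, x ≠ 1 → Subgroup.centralizer ({x} : Set G) = Q)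
    (hD : 2 * Nat.card D + 1 = Nat.card Q) (hQD : Q ⊓ D = ⊥)
    (hN : Subgroup.normalizer (Q : Set G) = Q ⊔ D) :
    Nat.card (Subgroup.normalizer (Q : Set G)) = Nat.card Q * Nat.card D ∧
    Nat.card (G ⧸ Subgroup.normalizer (Q : Set G)) = Nat.card Q + 1 ∧
    (∀ u ∈ Q, ∀ y : G ⧸ Subgroup.normalizer (Q : Set G),
      y ≠ ((1 : G) : G ⧸ Subgroup.normalizer (Q : Set G)) → u • y = y → u = 1) ∧
    (∀ y z : G ⧸ Subgroup.normalizer (Q : Set G),
      y ≠ ((1 : G) : G ⧸ Subgroup.normalizer (Q : Set G)) →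
      z ≠ ((1 : G) : G ⧸ Subgroup.normalizer (Q : Set G)) → ∃! u : Q, (u : G) • y = z) := by
  have hDle : D ≤ Subgroup.normalizer (Q : Set G) := by rw [hN]; exact le_sup_right
  have hQle : Q ≤ Subgroup.normalizer (Q : Set G) := Subgroup.le_normalizer
  have hNcard : Nat.card (Subgroup.normalizer (Q : Set G)) = Nat.card Q * Nat.card D := by
    rw [hN]; exact card_sup Q D hDle hQD
  have hdpos : 0 < Nat.card D := Nat.card_pos
  have hqpos : 0 < Nat.card Q := Nat.card_pos
  have hcop : (Nat.card Q).Coprime (Nat.card D) := by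
    rw [← hD]
    simp
  have hidx : Nat.card (G ⧸ Subgroup.normalizer (Q : Set G)) = Nat.card Q + 1 := by
    have h1 := Subgroup.card_mul_index (Subgroup.normalizer (Q : Set G))
    rw [hNcard] at h1
    have h2 : (Subgroup.normalizer (Q : Set G)).index =
        Nat.card (G ⧸ Subgroup.normalizer (Q : Set G)) := rfl
    rw [h2] at h1
    have h3 : Nat.card Q - 1 = 2 * Nat.card D := by omega
    rw [← h1, h3] at hcard
    have h4 : (2 * Nat.card Q * Nat.card D) *
        Nat.card (G ⧸ Subgroup.normalizer (Q : Set G)) =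
        (2 * Nat.card Q * Nat.card D) * (Nat.card Q + 1) := by
      linarith
    exact Nat.eq_of_mul_eq_mul_left (by positivity) h4
  exact ⟨hNcard, hidx, free_act Q D hcent hD hQD hN,
    regular_act Q D hcent hD hQD hN hidx⟩

/-- `|Q| = 3` is impossible. -/
theorem card_ne_three [Finite G] [IsSimpleGroup G] (Q D : Subgroup G)
    (hcard : 2 * Nat.card G = Nat.card Q * (Nat.card Q + 1) * (Nat.card Q - 1))
    (hcent : ∀ x ∈ Q, x ≠ 1 → Subgroup.centralizer ({x} : Set G) = Q)
    (hD : 2 * Nat.card D + 1 = Nat.card Q)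
    (hN : Subgroup.normalizer (Q : Set G) = Q ⊔ D) : Nat.card Q ≠ 3 := by
  intro h3
  have hG : Nat.card G = 12 := by rw [h3] at hcard; omega
  have hD1 : Nat.card D = 1 := by omega
  have hDbot : D = ⊥ := Subgroup.card_eq_one.1 hD1
  have hNQ : Subgroup.normalizer (Q : Set G) = Q := by rw [hN, hDbot, sup_bot_eq]
  haveI : Fact (Nat.Prime 3) := ⟨Nat.prime_three⟩
  have hfac : (Nat.card G).factorization 3 = 1 := by
    rw [hG]
    have h : (12 : ℕ) = 3 * 4 := by norm_num
    rw [h, Nat.factorization_mul (by norm_num) (by norm_num), Finsupp.add_apply,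
      Nat.prime_three.factorization_self, Nat.factorization_eq_zero_of_not_dvd (by norm_num)]
  let P : Sylow 3 G := Sylow.ofCard Q (by rw [h3, hfac, pow_one])
  have hPQ : (P : Subgroup G) = Q := rfl
  have hP : Subgroup.normalizer ((P : Subgroup G) : Set G) ≤
      Subgroup.centralizer ((P : Subgroup G) : Set G) := by
    rw [hPQ, hNQ]
    intro a ha
    rw [Subgroup.mem_centralizer_iff]
    intro b hb
    exact comm_of_cent Q hcent b hb a ha
  have hcompl := MonoidHom.ker_transferSylow_isComplement' P hP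
  have hmul := hcompl.card_mul_card
  have hPc : Nat.card (P : Subgroup G) = 3 := h3
  rw [hPc, hG] at hmul
  have hK : Nat.card (MonoidHom.transferSylow P hP).ker = 4 := by omega
  rcases (MonoidHom.normal_ker (MonoidHom.transferSylow P hP)).eq_bot_or_eq_top with h | h
  · rw [h, Subgroup.card_bot] at hK; omega
  · rw [h, Subgroup.card_top, hG] at hK; omega

/-- The action on the cosets of `N(Q)` makes `G` a Zassenhaus group. -/
theorem zassenhaus [Finite G] [IsSimpleGroup G] (Q D : Subgroup G)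
    (hcard : 2 * Nat.card G = Nat.card Q * (Nat.card Q + 1) * (Nat.card Q - 1))
    (hcent : ∀ x ∈ Q, x ≠ 1 → Subgroup.centralizer ({x} : Set G) = Q)
    (hD : 2 * Nat.card D + 1 = Nat.card Q) (hQD : Q ⊓ D = ⊥)
    (hN : Subgroup.normalizer (Q : Set G) = Q ⊔ D) :
    Cfsg.IsZassenhausGroup G (G ⧸ Subgroup.normalizer (Q : Set G)) := by
  obtain ⟨hNcard, hidx, hfree, hreg⟩ := action_props Q D hcard hcent hD hQD hN
  have hq3 := card_ne_three Q D hcard hcent hD hN
  have hq1 : Nat.card Q ≠ 1 := by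
    intro h1
    rw [h1] at hcard
    have : 0 < Nat.card G := Nat.card_pos
    omega
  have hq5 : 5 ≤ Nat.card Q := by omega
  have hd2 : 2 ≤ Nat.card D := by omega
  have hDle : D ≤ Subgroup.normalizer (Q : Set G) := by rw [hN]; exact le_sup_right
  have hQle : Q ≤ Subgroup.normalizer (Q : Set G) := Subgroup.le_normalizer
  have hstabN : MulAction.stabilizer G ((1 : G) : G ⧸ Subgroup.normalizer (Q : Set G)) =
      Subgroup.normalizer (Q : Set G) := MulAction.stabilizer_quotient _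
  have hNx : ∀ n ∈ Subgroup.normalizer (Q : Set G),
      n • ((1 : G) : G ⧸ Subgroup.normalizer (Q : Set G)) =
        ((1 : G) : G ⧸ Subgroup.normalizer (Q : Set G)) := by
    intro n hn
    have : n ∈ MulAction.stabilizer G ((1 : G) : G ⧸ Subgroup.normalizer (Q : Set G)) := by
      rw [hstabN]; exact hn
    exact this
  generalize hx₀ : ((1 : G) : G ⧸ Subgroup.normalizer (Q : Set G)) = x₀ at *
  haveI : Nontrivial (G ⧸ Subgroup.normalizer (Q : Set G)) :=
    Finite.one_lt_card_iff_nontrivial.1 (by rw [hidx]; omega)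
  obtain ⟨b, hb⟩ := exists_ne x₀
  have htrans : ∀ a : G ⧸ Subgroup.normalizer (Q : Set G), ∃ g : G, g • a = x₀ :=
    fun a => MulAction.exists_smul_eq G a x₀
  have hQne : Q ≠ ⊥ := by
    intro h
    rw [h, Subgroup.card_bot] at hq1
    exact hq1 rfl
  refine ⟨?_, ?_, ?_, ?_, ?_⟩
  · -- faithful
    constructor
    intro m₁ m₂ h
    have hker : (MulAction.toPermHom G (G ⧸ Subgroup.normalizer (Q : Set G))).ker = ⊥ := by
      rcases (MonoidHom.normal_ker
        (MulAction.toPermHom G (G ⧸ Subgroup.normalizer (Q : Set G)))).eq_bot_or_eq_top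
        with h | h
      · exact h
      · exfalso
        obtain ⟨g, hg⟩ := MulAction.exists_smul_eq G x₀ b
        have hgk : g ∈ (MulAction.toPermHom G (G ⧸ Subgroup.normalizer (Q : Set G))).ker := by
          rw [h]; trivial
        rw [MonoidHom.mem_ker] at hgk
        have h2 : MulAction.toPermHom G (G ⧸ Subgroup.normalizer (Q : Set G)) g x₀ = x₀ := by
          rw [hgk]; rfl
        rw [MulAction.toPermHom_apply, MulAction.toPerm_apply, hg] at h2
        exact hb h2
    have hmem : m₂⁻¹ * m₁ ∈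
        (MulAction.toPermHom G (G ⧸ Subgroup.normalizer (Q : Set G))).ker := by
      rw [MonoidHom.mem_ker]
      ext a
      rw [MulAction.toPermHom_apply, MulAction.toPerm_apply, mul_smul, h a, inv_smul_smul]
      rfl
    rw [hker, Subgroup.mem_bot] at hmem
    exact (inv_mul_eq_one.1 hmem).symm
  · -- 2-transitive
    rw [MulAction.is_two_pretransitive_iff]
    intro a b' c d hab hcd
    obtain ⟨g₁, hg₁⟩ := htrans a
    obtain ⟨g₂, hg₂⟩ := htrans c
    have h1 : g₁ • b' ≠ x₀ := by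
      rw [← hg₁]; exact fun h => hab (smul_left_cancel g₁ h).symm
    have h2 : g₂ • d ≠ x₀ := by
      rw [← hg₂]; exact fun h => hcd (smul_left_cancel g₂ h).symm
    obtain ⟨u, hu, -⟩ := hreg _ _ h1 h2
    have hux : (u : G) • x₀ = x₀ := hNx _ (hQle u.2)
    refine ⟨g₂⁻¹ * u * g₁, ?_, ?_⟩
    · rw [mul_smul, mul_smul, hg₁, hux, inv_smul_eq_iff, hg₂]
    · rw [mul_smul, mul_smul, hu, inv_smul_smul]
  · -- three fixed points
    intro g a b' c hab hbc hac ha hb' hc
    obtain ⟨h, hh⟩ := htrans a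
    have hg'x : (h * g * h⁻¹) • x₀ = x₀ := by
      rw [← hh, mul_smul, mul_smul, inv_smul_smul, ha]
    have hg'b : (h * g * h⁻¹) • (h • b') = h • b' := by
      rw [mul_smul, mul_smul, inv_smul_smul, hb']
    have hg'c : (h * g * h⁻¹) • (h • c) = h • c := by
      rw [mul_smul, mul_smul, inv_smul_smul, hc]
    have hb0 : h • b' ≠ x₀ := by
      rw [← hh]; exact fun e => hab (smul_left_cancel h e).symm
    have hc0 : h • c ≠ x₀ := by
      rw [← hh]; exact fun e => hac (smul_left_cancel h e).symm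
    have hg'N : h * g * h⁻¹ ∈ Subgroup.normalizer (Q : Set G) := by
      rw [← hstabN]; exact hg'x
    obtain ⟨u, hu, huniq⟩ := hreg _ _ hb0 hc0
    have hu1 : (u : G) ≠ 1 := by
      intro e
      rw [e, one_smul] at hu
      exact hbc (smul_left_cancel h hu)
    have hconjQ : (h * g * h⁻¹) * u * (h * g * h⁻¹)⁻¹ ∈ Q :=
      (Subgroup.mem_normalizer_iff.1 hg'N u).1 u.2
    have hconj_act : ((h * g * h⁻¹) * u * (h * g * h⁻¹)⁻¹) • (h • b') = h • c := by
      have h3 : (h * g * h⁻¹)⁻¹ • (h • b') = h • b' := by rw [inv_smul_eq_iff, hg'b]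
      rw [mul_smul, mul_smul, h3, hu, hg'c]
    have heq := huniq ⟨_, hconjQ⟩ hconj_act
    have hcomm : (h * g * h⁻¹) * u = u * (h * g * h⁻¹) :=
      mul_inv_eq_iff_eq_mul.1 (congrArg Subtype.val heq)
    have hg'Q : h * g * h⁻¹ ∈ Q := by
      rw [← hcent u u.2 hu1, Subgroup.mem_centralizer_singleton_iff]
      exact hcomm
    have h1 := hfree _ hg'Q _ hb0 hg'b
    have h2 : g = h⁻¹ * (h * g * h⁻¹) * h := by group
    rw [h2, h1]; group
  · -- two fixed points
    have hDne : D ≠ ⊥ := by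
      intro h
      rw [h, Subgroup.card_bot] at hd2
      omega
    obtain ⟨⟨d, hdD⟩, hd1⟩ := Subgroup.ne_bot_iff_exists_ne_one.1 hDne
    have hdx : d • x₀ = x₀ := hNx d (hDle hdD)
    have hdb : d • b ≠ x₀ := by
      rw [← hdx]; exact fun e => hb (smul_left_cancel d e)
    obtain ⟨u, hu, -⟩ := hreg b (d • b) hb hdb
    have hux : (u : G) • x₀ = x₀ := hNx _ (hQle u.2)
    refine ⟨(u : G)⁻¹ * d, ?_, x₀, b, hb.symm, ?_, ?_⟩
    · intro e
      have hdu : d = u := (inv_mul_eq_one.1 e).symm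
      have hmem : d ∈ Q ⊓ D := Subgroup.mem_inf.2 ⟨hdu ▸ u.2, hdD⟩
      rw [hQD, Subgroup.mem_bot] at hmem
      exact hd1 (Subtype.ext hmem)
    · rw [mul_smul, hdx, inv_smul_eq_iff, hux]
    · rw [mul_smul, inv_smul_eq_iff, hu]
  · -- no regular normal subgroup
    intro M hM htr
    rcases hM.eq_bot_or_eq_top with h | h
    · exfalso
      subst h
      obtain ⟨m, hm⟩ := htr.exists_smul_eq x₀ b
      have hm1 : (m : G) = 1 := Subgroup.mem_bot.1 m.2
      have h2 : (m : G) • x₀ = b := hm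
      rw [hm1, one_smul] at h2
      exact hb h2.symm
    · subst h
      refine ⟨x₀, ?_⟩
      intro hbot
      obtain ⟨⟨a, haQ⟩, ha1⟩ := Subgroup.ne_bot_iff_exists_ne_one.1 hQne
      have hmem : (⟨a, Subgroup.mem_top a⟩ : (⊤ : Subgroup G)) ∈
          MulAction.stabilizer (⊤ : Subgroup G) x₀ := by
        rw [MulAction.mem_stabilizer_iff]
        exact hNx a (hQle haQ)
      have hmem' : (⟨a, Subgroup.mem_top a⟩ : (⊤ : Subgroup G)) ∈
          (⊥ : Subgroup (⊤ : Subgroup G)) := by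
        rw [← hbot]; exact hmem
      rw [Subgroup.mem_bot] at hmem'
      have ha : a = 1 := congrArg Subtype.val hmem'
      exact ha1 (Subtype.ext ha)

/-- The final step: from the conclusion of the Zassenhaus-type recognition theorem. -/
theorem final_of_disj [Finite G] (Q : Subgroup G)
    (hcard : 2 * Nat.card G = Nat.card Q * (Nat.card Q + 1) * (Nat.card Q - 1))
    (hidx : Nat.card (G ⧸ Subgroup.normalizer (Q : Set G)) = Nat.card Q + 1)
    (hq : 2 ≤ Nat.card Q)
    (h : (MulAction.IsMultiplyPretransitive G (G ⧸ Subgroup.normalizer (Q : Set G)) 3 ∧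
        ∀ t : Fin 3 ↪ (G ⧸ Subgroup.normalizer (Q : Set G)), MulAction.stabilizer G t = ⊥) ∨
      ∃ (K : Type) (_ : Field K) (_ : Fintype K), ringChar K ≠ 2 ∧
        Nonempty (G ≃* Matrix.ProjectiveSpecialLinearGroup (Fin 2) K)) :
    ∃ (F : Type) (_ : Field F) (_ : Fintype F), Odd (Fintype.card F) ∧
      Nonempty (G ≃* Matrix.ProjectiveSpecialLinearGroup (Fin 2) F) := by
  rcases h with ⟨h3, hst⟩ | ⟨K, hK, hKf, hchar, hiso⟩
  · exfalso
    classical
    haveI := Fintype.ofFinite (G ⧸ Subgroup.normalizer (Q : Set G))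
    have hcΩ : Fintype.card (G ⧸ Subgroup.normalizer (Q : Set G)) = Nat.card Q + 1 := by
      rw [← Nat.card_eq_fintype_card]; exact hidx
    obtain ⟨t₀⟩ : Nonempty (Fin 3 ↪ (G ⧸ Subgroup.normalizer (Q : Set G))) :=
      Function.Embedding.nonempty_of_card_le (by rw [Fintype.card_fin, hcΩ]; omega)
    have h1 := MulAction.index_stabilizer_of_transitive (G := G) (x := t₀)
    rw [hst t₀, Subgroup.index_bot, Nat.card_eq_fintype_card (α := Fin 3 ↪ _),
      Fintype.card_embedding_eq, Fintype.card_fin, hcΩ] at h1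
    have h2 : (Nat.card Q + 1).descFactorial 3 =
        Nat.card Q * (Nat.card Q + 1) * (Nat.card Q - 1) := by
      rw [Nat.descFactorial_succ, Nat.descFactorial_succ, Nat.descFactorial_succ,
        Nat.descFactorial_zero, Nat.sub_zero]
      have e1 : Nat.card Q + 1 - 2 = Nat.card Q - 1 := by omega
      have e2 : Nat.card Q + 1 - 1 = Nat.card Q := by omega
      rw [e1, e2]
      ring
    rw [h2, ← hcard] at h1
    have : 0 < Nat.card G := Nat.card_pos
    omega
  · exact ⟨K, hK, hKf, Nat.odd_iff.2 (FiniteField.odd_card_of_char_ne_two hchar), hiso⟩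

end Cfsg.Agent.Lib.Helper19.BSWZ
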