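import Mathlib
import Cfsg.Agent.Lib.Helper61.BlkDefs

/-!
# S5634 (m ≥ 2), piece D (for helper61): all `U j l` and the block transvections generate `SL`
-/

set_option autoImplicit false

namespace Cfsg.Agent.Lib.Helper61.Blk

open Matrix Cfsg.Agent.Lib.Helper97

section
variable {ι : Type} [Fintype ι] [DecidableEq ι] {F : Type*} [Field F] {t : ℕ}

omit [Fintype ι] [DecidableEq ι] in
theorem stepD_inB_res (β : ι → Fin t) (l : Fin t) (v : ι → F) : InB β l (res β l v) := by
  intro k hk
  unfold res
  rw [if_neg hk]

omit [Fintype ι] [DecidableEq ι] in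
theorem stepD_sum_res (β : ι → Fin t) (v : ι → F) : ∑ l, res β l v = v := by
  funext k
  rw [Finset.sum_apply]
  unfold res
  rw [Finset.sum_ite_eq Finset.univ (β k) (fun _ => v k)]
  simp

omit [DecidableEq ι] in
theorem stepD_res_dot (β : ι → Fin t) (j : Fin t) (φ u : ι → F) (hu : InB β j u) :
    res β j φ ⬝ᵥ u = φ ⬝ᵥ u := by
  unfold dotProduct
  apply Finset.sum_congr rfl
  intro k _
  unfold res
  by_cases hk : β k = j
  · rw [if_pos hk]
  · rw [if_neg hk, hu k hk, zero_mul, mul_zero]

/-- D -/
theorem stepD (β : ι → Fin t) [Nontrivial ι] {X : Subgroup (GL ι F)} (hBT : BT β X)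
    (hU : ∀ j l : Fin t, j ≠ l → U β X j l) : Cfsg.Geo.specialLinear ι F ≤ X := by
  -- block vectors are centres
  have h1 : ∀ (j : Fin t) (u : ι → F), InB β j u → u ∈ centres X := by
    intro j u hu
    apply mem_centres_of_TM
    intro φ hφ
    rw [← stepD_sum_res β φ]
    apply TM_sum
    intro l _
    by_cases hl : j = l
    · subst hl
      exact hBT j u (res β j φ) hu (stepD_inB_res β j φ) (by rw [stepD_res_dot β j φ u hu]; exact hφ)
    · exact hU j l hl u (res β l φ) hu (stepD_inB_res β l φ)
  have h0 : (0 : ι → F) ∈ centres X :=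
    mem_centres_of_TM (fun ψ _ => TM_zero_left X ψ)
  -- every vector is a centre
  have h2 : ∀ v : ι → F, v ∈ centres X := by
    intro v
    rw [← stepD_sum_res β v]
    have key : ∀ s : Finset (Fin t), ∑ l ∈ s, res β l v ∈ centres X := by
      intro s
      induction s using Finset.induction_on with
      | empty => rw [Finset.sum_empty]; exact h0
      | insert a s ha ih =>
        rw [Finset.sum_insert ha]
        exact centres_add X (h1 a _ (stepD_inB_res β a v)) ih
    exact key Finset.univ
  exact specialLinear_le_of_tv X (fun v φ hφ g hg => h2 v φ hφ g hg)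

end

end Cfsg.Agent.Lib.Helper61.Blk
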