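import Mathlib
import Cfsg.Agent.Lib.Helper61.BlkDefs

/-!
# S5634 (m ≥ 2), piece H1 (for helper61): an element of `X` maps block vectors into blocks
-/

set_option autoImplicit false

namespace Cfsg.Agent.Lib.Helper61.Blk

open Matrix Cfsg.Agent.Lib.Helper97

section
variable {ι : Type} [Fintype ι] [DecidableEq ι] {F : Type*} [Field F] {t : ℕ}

/-- H1 -/
theorem stepH1 (β : ι → Fin t) (hf : Fib2 β) {X : Subgroup (GL ι F)} (hBT : BT β X)
    (hsing : ∀ c φ : ι → F, TM X c φ → c ≠ 0 → φ ≠ 0 → ∃ l, InB β l c ∧ InB β l φ)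
    (x : GL ι F) (hx : x ∈ X) (i : Fin t) (c : ι → F) (hc : InB β i c) :
    ∃ l, InB β l ((x : Matrix ι ι F) *ᵥ c) := by
  by_cases hc0 : c = 0
  · refine ⟨i, ?_⟩
    rw [hc0, Matrix.mulVec_zero]
    intro j _
    rfl
  · obtain ⟨j₁, hj₁⟩ : ∃ j₁, c j₁ ≠ 0 := by
      by_contra hcon
      push Not at hcon
      exact hc0 (funext hcon)
    have hβ₁ : β j₁ = i := by
      by_contra hne
      exact hj₁ (hc j₁ hne)
    obtain ⟨j₂, hj₂, hβ₂⟩ := hf.other j₁
    rw [hβ₁] at hβ₂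
    -- the functional `φ = c j₁ • e_{j₂} - c j₂ • e_{j₁}`
    have hφB : InB β i (c j₁ • (Pi.single j₂ 1 : ι → F) - c j₂ • (Pi.single j₁ 1 : ι → F)) := by
      intro k hk
      have hk1 : k ≠ j₁ := by
        rintro rfl
        exact hk hβ₁
      have hk2 : k ≠ j₂ := by
        rintro rfl
        exact hk hβ₂
      simp [hk1, hk2]
    have hφ0 : c j₁ • (Pi.single j₂ 1 : ι → F) - c j₂ • (Pi.single j₁ 1 : ι → F) ≠ 0 := by
      intro h0
      have h1 := congrFun h0 j₂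
      simp [hj₂] at h1
      exact hj₁ h1
    have hφc : (c j₁ • (Pi.single j₂ 1 : ι → F) - c j₂ • (Pi.single j₁ 1 : ι → F)) ⬝ᵥ c = 0 := by
      rw [sub_dotProduct, smul_dotProduct, smul_dotProduct, single_one_dotProduct,
        single_one_dotProduct, smul_eq_mul, smul_eq_mul]
      ring
    have hTM := hBT i c _ hc hφB hφc
    have h1 := TM_conj hTM (X.inv_mem hx)
    rw [inv_inv] at h1
    have hxc : (x : Matrix ι ι F) *ᵥ c ≠ 0 := by
      intro h0
      apply hc0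
      have h2 : ((x⁻¹ : GL ι F) : Matrix ι ι F) *ᵥ ((x : Matrix ι ι F) *ᵥ c) = c := by
        rw [Matrix.mulVec_mulVec, ← Units.val_mul, inv_mul_cancel, Units.val_one,
          Matrix.one_mulVec]
      rw [← h2, h0, Matrix.mulVec_zero]
    have hφx : (c j₁ • (Pi.single j₂ 1 : ι → F) - c j₂ • (Pi.single j₁ 1 : ι → F)) ᵥ*
        ((x⁻¹ : GL ι F) : Matrix ι ι F) ≠ 0 := by
      intro h0
      apply hφ0
      have h2 : ((c j₁ • (Pi.single j₂ 1 : ι → F) - c j₂ • (Pi.single j₁ 1 : ι → F)) ᵥ*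
          ((x⁻¹ : GL ι F) : Matrix ι ι F)) ᵥ* (x : Matrix ι ι F) =
          c j₁ • (Pi.single j₂ 1 : ι → F) - c j₂ • (Pi.single j₁ 1 : ι → F) := by
        rw [Matrix.vecMul_vecMul, ← Units.val_mul, inv_mul_cancel, Units.val_one,
          Matrix.vecMul_one]
      rw [← h2, h0, Matrix.zero_vecMul]
    obtain ⟨l, hl, -⟩ := hsing _ _ h1 hxc hφx
    exact ⟨l, hl⟩

end

end Cfsg.Agent.Lib.Helper61.Blk
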