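import Mathlib
import Cfsg.Agent.Lib.Helper61.BlkDefs

/-!
# S5634 (m ≥ 2), piece I (for helper61): a transvection between two blocks is not block monomial
-/

set_option autoImplicit false

namespace Cfsg.Agent.Lib.Helper61.Blk

open Matrix Cfsg.Agent.Lib.Helper97

section
variable {ι : Type} [Fintype ι] [DecidableEq ι] {F : Type*} [Field F] {t : ℕ}

/-- I -/
theorem stepI (β : ι → Fin t) (a b : ι) (hab : β a ≠ β b) :
    ∃ g : GL ι F, g ∈ Cfsg.Geo.specialLinear ι F ∧
      ∀ σ : Equiv.Perm (Fin t), ¬ BMono β σ (g : Matrix ι ι F) := by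
  have hne : a ≠ b := by
    rintro rfl
    exact hab rfl
  have h0 : (Pi.single b 1 : ι → F) ⬝ᵥ Pi.single a 1 = 0 := by
    simp [hne]
  refine ⟨tvG (Pi.single a 1) (Pi.single b 1) h0, tvG_mem_specialLinear _ _ h0, ?_⟩
  intro σ hσ
  have hbb : (tvG (Pi.single a (1 : F)) (Pi.single b 1) h0 : Matrix ι ι F) b b = 1 := by
    rw [tvG_val, tv]
    simp [Matrix.vecMulVec_apply, Ne.symm hne]
  have hab' : (tvG (Pi.single a (1 : F)) (Pi.single b 1) h0 : Matrix ι ι F) a b = 1 := by
    rw [tvG_val, tv]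
    simp [Matrix.vecMulVec_apply, hne]
  have e1 : β b = σ (β b) := hσ b b (by rw [hbb]; exact one_ne_zero)
  have e2 : β a = σ (β b) := hσ a b (by rw [hab']; exact one_ne_zero)
  exact hab (e2.trans e1.symm)

end

end Cfsg.Agent.Lib.Helper61.Blk
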