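import Mathlib
import Cfsg.Agent.Lib.Helper61.BlkDefs

/-!
# S5634 (m ≥ 2), piece K3 (for helper61): elements of the decomposition stabiliser are block
monomial
-/

set_option autoImplicit false

namespace Cfsg.Agent.Lib.Helper61.Blk

open Matrix Cfsg.Agent.Lib.Helper97

section
variable {ι : Type} [Fintype ι] [DecidableEq ι] {F : Type*} [Field F] {t : ℕ}

/-- K3 -/
theorem stepK3 (β : ι → Fin t) (g : GL ι F)
    (h : g ∈ Cfsg.Geo.decompositionStabilizer (fun l => Bl (F := F) β l)) :
    ∃ σ : Equiv.Perm (Fin t), BMono β σ (g : Matrix ι ι F) := by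
  obtain ⟨σ, hσ⟩ := h
  refine ⟨σ, ?_⟩
  intro i j hij
  by_contra hne
  apply hij
  have h1 : (Pi.single j 1 : ι → F) ∈ Bl (F := F) β (β j) := by
    intro k hk
    have hkj : k ≠ j := by
      rintro rfl
      exact hk rfl
    simp [hkj]
  have h2 : Matrix.toLin' (g : Matrix ι ι F) (Pi.single j 1) ∈ Bl (F := F) β (σ (β j)) := by
    have h4 : (Bl (F := F) β (β j)).map (Matrix.toLin' (g : Matrix ι ι F)) =
        Bl (F := F) β (σ (β j)) := hσ (β j)
    rw [← h4]
    exact Submodule.mem_map_of_mem h1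
  have h3 := h2 i hne
  rw [Matrix.toLin'_apply, Matrix.mulVec_single_one] at h3
  exact h3

end

end Cfsg.Agent.Lib.Helper61.Blk
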