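import Mathlib
import Cfsg.Agent.Lib.Helper79.DGMK
import Cfsg.Agent.Lib.Helper33.BFOne2
import Cfsg.Agent.Lib.Helper22.IndCent2
import Cfsg.Agent.Lib.Helper75.DGSTAB
import Cfsg.Agent.Lib.Helper33.TGCCNT
import Cfsg.Agent.Lib.Helper33.TGCGD
import Cfsg.Agent.Lib.Helper92.TGCIND

/-!
# DG project (helper79, S4502), piece ORBQ: counting the canonical characters whose block induces
a given block with Sylow defect group of order `p` (helper19)
-/

set_option autoImplicit false
set_option linter.style.haveILetI false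
set_option maxHeartbeats 1600000

namespace Cfsg.Agent.Lib.Helper19.DG

open Cfsg Cfsg.Agent.Lib.Helper79.DG
open Cfsg.Agent.Lib.Helper4 Cfsg.Agent.Lib.Helper21 Cfsg.Agent.Lib.Helper22
open Cfsg.Agent.Lib.Helper81
open scoped ComplexConjugate

section

variable {H : Type*} [Group H] [Fintype H]

/-- Uniqueness of the canonical character in a block of `C_H(Q)` inducing `B`. -/
theorem canon_unique (p : ℕ) [Fact p.Prime] (M : Ideal AlgInt) (hM : IsPModular p M)
    (Q : Sylow p H) (hQ : Nat.card Q = p)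
    (B : Set (IrrCharacter H)) (hBQ : IsDefectGroup p M B Q)
    (c : Set (IrrCharacter (Subgroup.centralizer ((Q : Subgroup H) : Set H))))
    (hind : IsInducedBlock M (Subgroup.centralizer ((Q : Subgroup H) : Set H)) c B)
    (θ θ' : IrrCharacter (Subgroup.centralizer ((Q : Subgroup H) : Set H)))
    (hθ : θ ∈ c) (hθ' : θ' ∈ c) (hc : IsCanon (Q : Subgroup H) θ)
    (hc' : IsCanon (Q : Subgroup H) θ') : θ' = θ := by
  classical
  have hp : p.Prime := Fact.out
  haveI := irr_finite (G := H)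
  letI := Fintype.ofFinite (IrrCharacter H)
  obtain ⟨z, hz, hz1⟩ : ∃ z : H, z ∈ (Q : Subgroup H) ∧ z ≠ 1 := by
    by_contra hcon
    push Not at hcon
    have hbot : (Q : Subgroup H) = ⊥ := by
      rw [eq_bot_iff]
      intro z hz
      exact Subgroup.mem_bot.2 (hcon z hz)
    have h1 : Nat.card (Q : Subgroup H) = 1 := by rw [hbot]; exact Subgroup.card_bot
    have h2 : Nat.card (Q : Subgroup H) = p := hQ
    rw [h1] at h2
    exact hp.one_lt.ne h2
  obtain ⟨v, -, -, -, -, -, huniq⟩ := Cfsg.Agent.Lib.Helper33.TGC.gd_exists hM Q hQ B hind.2.1 hBQ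
    c hind θ hθ hc z hz hz1 (Complex.exp (2 * Real.pi * Complex.I / p))
    (Complex.isPrimitiveRoot_exp p hp.ne_zero)
  exact huniq θ' hθ' hc'

/-- PIECE ORBQ -/
theorem card_roots (p : ℕ) [Fact p.Prime] (M : Ideal AlgInt) (hM : IsPModular p M)
    (Q : Sylow p H) (hQ : Nat.card Q = p)
    (B : Set (IrrCharacter H)) (hBQ : IsDefectGroup p M B Q)
    (θ : IrrCharacter (Subgroup.centralizer ((Q : Subgroup H) : Set H)))
    (hθ : IsCanon (Q : Subgroup H) θ)
    (hind : IsInducedBlock M (Subgroup.centralizer ((Q : Subgroup H) : Set H))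
      (blockOf M θ.1) B) :
    Nat.card {θ' : IrrCharacter (Subgroup.centralizer ((Q : Subgroup H) : Set H)) //
        IsCanon (Q : Subgroup H) θ' ∧
        IsInducedBlock M (Subgroup.centralizer ((Q : Subgroup H) : Set H)) (blockOf M θ'.1) B} *
      Nat.card (stabSet (Q : Subgroup H) θ) =
    Nat.card (Subgroup.normalizer ((Q : Subgroup H) : Set H)) := by
  classical
  have hB : IsPBlock M B := hind.2.1
  obtain ⟨b, hbdef⟩ : ∃ b, b = blockOf M θ.1 := ⟨_, rfl⟩
  rw [← hbdef] at hind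
  have hb : IsPBlock M b := hind.1
  have hθb : θ ∈ b := by rw [hbdef]; exact Cfsg.Agent.Lib.Helper22.mem_blockOf_self hM θ
  obtain ⟨T, hT⟩ := exists_stabGroup (Q : Subgroup H) θ
  have hstab : ∀ g : H, conjPair g (⟨(Q : Subgroup H), b⟩ : BrauerPairIdx H) =
      ⟨(Q : Subgroup H), b⟩ ↔ g ∈ T := by
    intro g
    rw [hT]
    exact Cfsg.Agent.Lib.Helper75.DG.stab_iff hM (Q : Subgroup H) b hb θ hθb hθ
      (fun ξ hξ hξc => canon_unique p M hM Q hQ B hBQ b hind θ ξ hθb hξ hθ hξc) g
  obtain ⟨S, hS⟩ : ∃ S : Set (Set (IrrCharacter (Subgroup.centralizer ((Q : Subgroup H) : Set H)))),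
      ∀ c, c ∈ S ↔ ∃ g : H, conjPair g (⟨(Q : Subgroup H), b⟩ : BrauerPairIdx H) =
        ⟨(Q : Subgroup H), c⟩ :=
    ⟨{c | ∃ g : H, conjPair g (⟨(Q : Subgroup H), b⟩ : BrauerPairIdx H) =
        ⟨(Q : Subgroup H), c⟩}, fun c => Iff.rfl⟩
  have hcard : Nat.card S = T.relIndex (Subgroup.normalizer ((Q : Subgroup H) : Set H)) :=
    Cfsg.Agent.Lib.Helper33.TGC.card_conj (Q : Subgroup H) b S T hstab hS
  have hTN : T ≤ Subgroup.normalizer ((Q : Subgroup H) : Set H) := fun g hg => ((hT g).1 hg).1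
  have hTcard : Nat.card (stabSet (Q : Subgroup H) θ) = Nat.card T :=
    Nat.card_congr (Equiv.subtypeEquivRight (fun g => (hT g).symm))
  have hindS : ∀ c, c ∈ S ↔
      IsInducedBlock M (Subgroup.centralizer ((Q : Subgroup H) : Set H)) c B := by
    intro c
    rw [hS]
    exact (Cfsg.Agent.Lib.Helper92.TGC.ind_iff_conj p M hM Q hQ B hB hBQ b hind c).symm
  -- the bijection `θ' ↦ blockOf θ'`
  have hbij : Nat.card {θ' : IrrCharacter (Subgroup.centralizer ((Q : Subgroup H) : Set H)) //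
      IsCanon (Q : Subgroup H) θ' ∧
      IsInducedBlock M (Subgroup.centralizer ((Q : Subgroup H) : Set H)) (blockOf M θ'.1) B} =
      Nat.card S := by
    apply Nat.card_congr
    refine Equiv.ofBijective (fun θ' => ⟨blockOf M θ'.1.1, (hindS _).2 θ'.2.2⟩) ⟨?_, ?_⟩
    · rintro ⟨θ₁, h₁c, h₁i⟩ ⟨θ₂, h₂c, h₂i⟩ h
      have h' : blockOf M θ₁.1 = blockOf M θ₂.1 := congrArg Subtype.val h
      apply Subtype.ext
      show θ₁ = θ₂
      exact canon_unique p M hM Q hQ B hBQ _ h₂i θ₂ θ₁
        (Cfsg.Agent.Lib.Helper22.mem_blockOf_self hM θ₂)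
        (by rw [← h']; exact Cfsg.Agent.Lib.Helper22.mem_blockOf_self hM θ₁) h₂c h₁c
    · rintro ⟨c, hc⟩
      obtain ⟨g, hg⟩ := (hS c).1 hc
      have hgN : g ∈ Subgroup.normalizer ((Q : Subgroup H) : Set H) :=
        mem_normalizer_of_conj_map_eq (Q : Subgroup H) g (congrArg Sigma.fst hg)
      have hgC := normalizer_le_normalizer_centralizer (Q : Subgroup H) hgN
      have h2 := (conjPair_of_mem_normalizer (Q : Subgroup H) g hgN b).symm.trans hg
      have hceq : conjSet (Subgroup.centralizer ((Q : Subgroup H) : Set H)) g hgC b = c :=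
        eq_of_heq (Sigma.mk.inj_iff.mp h2).2
      obtain ⟨θg, hθg⟩ : ∃ θg, θg = irrMap
          (normConj (Subgroup.centralizer ((Q : Subgroup H) : Set H)) g hgC) θ := ⟨_, rfl⟩
      have hθgc : θg ∈ c := by rw [← hceq, hθg]; exact ⟨θ, hθb, rfl⟩
      have hci : IsInducedBlock M (Subgroup.centralizer ((Q : Subgroup H) : Set H)) c B :=
        (hindS c).1 hc
      letI : Fintype (Subgroup.centralizer ((Q : Subgroup H) : Set H)) := Fintype.ofFinite _
      have hcblk : c = blockOf M θg.1 :=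
        Cfsg.Agent.Lib.Helper82.block_eq_of_mem hM hci.1 ⟨θg, rfl⟩ θg hθgc
          (Cfsg.Agent.Lib.Helper22.mem_blockOf_self hM θg)
      have hcan : IsCanon (Q : Subgroup H) θg := by
        intro x hx
        rw [hθg]
        show (irrMap (normConj (Subgroup.centralizer ((Q : Subgroup H) : Set H)) g hgC) θ :
          Subgroup.centralizer ((Q : Subgroup H) : Set H) → ℂ) x =
          (irrMap (normConj (Subgroup.centralizer ((Q : Subgroup H) : Set H)) g hgC) θ :
          Subgroup.centralizer ((Q : Subgroup H) : Set H) → ℂ) 1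
        rw [irrMap_apply, irrMap_one]
        refine hθ _ ?_
        rw [normConj_symm_apply]
        have h3 := (Subgroup.mem_normalizer_iff.1 (inv_mem hgN) (x : H)).1 hx
        simpa using h3
      refine ⟨⟨θg, hcan, by rw [← hcblk]; exact hci⟩, ?_⟩
      apply Subtype.ext
      exact hcblk.symm
  rw [hbij, hcard, hTcard, mul_comm, ← Subgroup.relIndex_bot_left,
    ← Subgroup.relIndex_bot_left (H := Subgroup.normalizer ((Q : Subgroup H) : Set H))]
  exact Subgroup.relIndex_mul_relIndex _ _ _ bot_le hTN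

end

end Cfsg.Agent.Lib.Helper19.DG
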