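import Mathlib
import Cfsg.Agent.Lib.Helper19.DkW

set_option autoImplicit false

/-! Two more pieces for S5891 (helper54): `q8_scaled` and `prime_of_le_bot`. -/

namespace Cfsg.Agent.Lib.Helper19.Dk

open Matrix Cfsg.Agent.S0809 Cfsg.Agent.Lib.Helper54

section Q8Scaled

variable {F : Type*} [Field F]

/-- if `γ` conjugates the standard quaternion pair into matrices over `K`, a scalar multiple
of `γ` has entries in `K` -/
theorem q8_scaled (h2 : (2 : F) ≠ 0) (K : Subfield F) (a₀ b₀ : F)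
    (h : a₀ * (-a₀) - b₀ * b₀ = 1) (ha : a₀ ∈ K) (hb : b₀ ∈ K) (γ : G2 F)
    (hX : gconj γ (mk2 a₀ b₀ b₀ (-a₀) h) ∈ SLsub K) (hJ : gconj γ Jm ∈ SLsub K) :
    ∃ lam : F, lam ≠ 0 ∧ ∀ i j, lam * (γ : Matrix (Fin 2) (Fin 2) F) i j ∈ K := by
  obtain ⟨P, hP⟩ : ∃ P : Matrix (Fin 2) (Fin 2) F → Prop, P = fun A => ∀ i j,
      ((γ : Matrix (Fin 2) (Fin 2) F) * A * ((γ⁻¹ : G2 F) : Matrix (Fin 2) (Fin 2) F)) i j ∈ K :=
    ⟨_, rfl⟩
  have P_of : ∀ g : S2 F, gconj γ g ∈ SLsub K → P (g : Matrix (Fin 2) (Fin 2) F) := by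
    intro g hg
    rw [hP]
    intro i j
    exact (mem_SLsub K _).1 hg i j
  have of_P : ∀ g : S2 F, P (g : Matrix (Fin 2) (Fin 2) F) → gconj γ g ∈ SLsub K := by
    intro g hg
    rw [hP] at hg
    rw [mem_SLsub]
    intro i j
    exact hg i j
  have padd : ∀ A B, P A → P B → P (A + B) := by
    intro A B hA hB
    rw [hP] at hA hB ⊢
    intro i j
    rw [Matrix.mul_add, Matrix.add_mul, Matrix.add_apply]
    exact K.add_mem (hA i j) (hB i j)
  have psub : ∀ A B, P A → P B → P (A - B) := by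
    intro A B hA hB
    rw [hP] at hA hB ⊢
    intro i j
    rw [Matrix.mul_sub, Matrix.sub_mul, Matrix.sub_apply]
    exact K.sub_mem (hA i j) (hB i j)
  have psmul : ∀ (t : F) A, t ∈ K → P A → P (t • A) := by
    intro t A ht hA
    rw [hP] at hA ⊢
    intro i j
    rw [Matrix.mul_smul, Matrix.smul_mul, Matrix.smul_apply, smul_eq_mul]
    exact K.mul_mem ht (hA i j)
  have h2m : (2 : F) ∈ K := by
    have := K.add_mem K.one_mem K.one_mem
    rwa [one_add_one_eq_two] at this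
  have hhalf : (2⁻¹ : F) ∈ K := K.inv_mem h2m
  have P1 : P 1 := by
    have := P_of 1 (by rw [map_one]; exact (SLsub K).one_mem)
    exact this
  have PX := P_of _ hX
  have PJ := P_of _ hJ
  have PXJ := P_of (mk2 a₀ b₀ b₀ (-a₀) h * Jm) (by rw [map_mul]; exact (SLsub K).mul_mem hX hJ)
  have hab : a₀ ^ 2 + b₀ ^ 2 = -1 := by linear_combination -h
  obtain ⟨X₀, hX₀⟩ : ∃ X₀ : S2 F, X₀ = mk2 a₀ b₀ b₀ (-a₀) h := ⟨_, rfl⟩
  rw [← hX₀] at PX PXJ
  have x00 : X₀ 0 0 = a₀ := by rw [hX₀]; rfl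
  have x01 : X₀ 0 1 = b₀ := by rw [hX₀]; rfl
  have x10 : X₀ 1 0 = b₀ := by rw [hX₀]; rfl
  have x11 : X₀ 1 1 = -a₀ := by rw [hX₀]; rfl
  have j00 : (Jm : S2 F) 0 0 = 0 := rfl
  have j01 : (Jm : S2 F) 0 1 = -1 := rfl
  have j10 : (Jm : S2 F) 1 0 = 1 := rfl
  have j11 : (Jm : S2 F) 1 1 = 0 := rfl
  have e00 : (X₀ * Jm : S2 F) 0 0 = b₀ := by rw [mul00, x00, x01, j00, j10]; ring
  have e01 : (X₀ * Jm : S2 F) 0 1 = -a₀ := by rw [mul01, x00, x01, j01, j11]; ring
  have e10 : (X₀ * Jm : S2 F) 1 0 = -a₀ := by rw [mul10, x10, x11, j00, j10]; ring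
  have e11 : (X₀ * Jm : S2 F) 1 1 = -b₀ := by rw [mul11, x10, x11, j01, j11]; ring
  have key : ∀ (u : S2 F) (s : F), s ∈ K → u 0 0 = 1 → u 0 1 = (1 + s) / 2 →
      u 1 0 = (1 - s) / 2 → u 1 1 = 1 → gconj γ u ∈ SLsub K := by
    intro u s hs u00 u01 u10 u11
    apply of_P
    have e : (u : Matrix (Fin 2) (Fin 2) F)
        = 1 + (2⁻¹ : F) • (a₀ • ((X₀ * Jm : S2 F) : Matrix (Fin 2) (Fin 2) F)
            - b₀ • (X₀ : Matrix (Fin 2) (Fin 2) F)
            - s • ((Jm : S2 F) : Matrix (Fin 2) (Fin 2) F)) := by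
      ext i j
      rw [Matrix.add_apply, Matrix.smul_apply, Matrix.sub_apply, Matrix.sub_apply,
        Matrix.smul_apply, Matrix.smul_apply, Matrix.smul_apply]
      simp only [smul_eq_mul]
      fin_cases i <;> fin_cases j
      · show u 0 0 = (1 : Matrix (Fin 2) (Fin 2) F) 0 0
          + 2⁻¹ * (a₀ * (X₀ * Jm : S2 F) 0 0 - b₀ * X₀ 0 0 - s * (Jm : S2 F) 0 0)
        rw [e00, x00, j00, u00, Matrix.one_apply_eq]
        ring
      · show u 0 1 = (1 : Matrix (Fin 2) (Fin 2) F) 0 1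
          + 2⁻¹ * (a₀ * (X₀ * Jm : S2 F) 0 1 - b₀ * X₀ 0 1 - s * (Jm : S2 F) 0 1)
        rw [e01, x01, j01, u01, Matrix.one_apply_ne (show (0 : Fin 2) ≠ 1 by decide)]
        field_simp
        linear_combination hab
      · show u 1 0 = (1 : Matrix (Fin 2) (Fin 2) F) 1 0
          + 2⁻¹ * (a₀ * (X₀ * Jm : S2 F) 1 0 - b₀ * X₀ 1 0 - s * (Jm : S2 F) 1 0)
        rw [e10, x10, j10, u10, Matrix.one_apply_ne (show (1 : Fin 2) ≠ 0 by decide)]
        field_simp
        linear_combination hab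
      · show u 1 1 = (1 : Matrix (Fin 2) (Fin 2) F) 1 1
          + 2⁻¹ * (a₀ * (X₀ * Jm : S2 F) 1 1 - b₀ * X₀ 1 1 - s * (Jm : S2 F) 1 1)
        rw [e11, x11, j11, u11, Matrix.one_apply_eq]
        ring
    rw [e]
    exact padd _ _ P1 (psmul _ _ hhalf (psub _ _ (psub _ _ (psmul _ _ ha PXJ) (psmul _ _ hb PX))
      (psmul _ _ hs PJ)))
  have hU : gconj γ (uu 1) ∈ SLsub K := by
    apply key (uu 1) 1 K.one_mem (uu_00 1)
    · rw [uu_01]; field_simp; norm_num
    · rw [uu_10]; simp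
    · exact uu_11 1
  have hL : gconj γ (ll 1) ∈ SLsub K := by
    apply key (ll 1) (-1) (K.neg_mem K.one_mem) (ll_00 1)
    · rw [ll_01]; simp
    · rw [ll_10]; field_simp; norm_num
    · exact ll_11 1
  exact gconj_scaled K γ hU hL

end Q8Scaled

section PrimeBot

theorem prime_of_le_bot {F : Type*} [Field F] [Fintype F] (p : ℕ) [Fact p.Prime] [CharP F p]
    (hodd : Odd (Fintype.card F)) (M : Subgroup (PG2 F)) (hM : IsCoatom M) (hp3 : p ≠ 3)
    (h24 : Nat.card M = 24)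
    (hle : M ≤ (ProjGenLinGroup.map (n := Fin 2) (⊥ : Subfield F).subtype).range) :
    Fintype.card F = p := by
  classical
  by_cases hbot : (⊥ : Subfield F) = ⊤
  · have h1 := Subfield.card_bot F p
    rw [hbot] at h1
    rw [← h1, ← Nat.card_eq_fintype_card]
    exact (Nat.card_congr (Subfield.topEquiv (K := F)).toEquiv).symm
  · exfalso
    have hRne : (ProjGenLinGroup.map (n := Fin 2) (⊥ : Subfield F).subtype).range ≠ ⊤ := by
      intro h
      apply hbot
      rw [eq_top_iff]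
      intro y _
      by_cases hy : y = 0
      · rw [hy]; exact Subfield.zero_mem _
      · obtain ⟨a, ha⟩ := diag_of_mem_range (⊥ : Subfield F).subtype (Units.mk0 y hy)
          (by rw [h]; trivial)
        rw [← show ((a : (⊥ : Subfield F)) : F) = y from ha]
        exact a.2
    have hMeq : M = (ProjGenLinGroup.map (n := Fin 2) (⊥ : Subfield F).subtype).range := by
      rcases eq_or_lt_of_le hle with h | h
      · exact h
      · exact absurd (hM.2 _ h) hRne
    haveI : Fintype (⊥ : Subfield F) := Fintype.ofFinite _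
    have hc : Nat.card M = p * (p ^ 2 - 1) := by
      rw [hMeq, ← Nat.card_congr (MonoidHom.ofInjective
        (Cfsg.Agent.S0805.pglmap_inj (⊥ : Subfield F).subtype)).toEquiv, pg_card,
        ← Nat.card_eq_fintype_card, Subfield.card_bot F p]
    rw [h24] at hc
    have hp2 := (Fact.out : p.Prime).two_le
    have hp4 : p < 4 := by
      by_contra hcon
      push Not at hcon
      have : 4 * (4 ^ 2 - 1) ≤ p * (p ^ 2 - 1) :=
        Nat.mul_le_mul hcon (Nat.sub_le_sub_right (Nat.pow_le_pow_left hcon 2) 1)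
      omega
    interval_cases p
    · norm_num at hc
    · exact hp3 rfl

end PrimeBot

end Cfsg.Agent.Lib.Helper19.Dk
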