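import Mathlib
import Cfsg.Agent.Lib.Helper44.ESDefs
import Cfsg.Prelude.Def_GeometricClasses

/-!
# S5877 (helper44), piece ES-BASE

From the hypotheses of S5877 (centre of `R` of order `r` = commutator subgroup of `R`, `R`
absolutely irreducible): `Base (R ⊔ scalars) scalars r`.
-/

set_option autoImplicit false

namespace Cfsg.Agent.Lib.Helper44.ES

open Module Module.End
open scoped commutatorElement

/-- an invertible matrix of the form `k • 1` is in `scalars` -/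
theorem esbase_mem_scalars {F : Type*} [Field F] {n : ℕ}
    (g : Matrix.GeneralLinearGroup (Fin n) F) (k : F)
    (hg : (g : Matrix (Fin n) (Fin n) F) = k • (1 : Matrix (Fin n) (Fin n) F)) :
    g ∈ Cfsg.Geo.scalars (Fin n) F := by
  rw [Cfsg.Geo.mem_scalars_iff]
  by_cases hk : k = 0
  · refine ⟨1, ?_⟩
    have h1 : (g : Matrix (Fin n) (Fin n) F) = 0 := by rw [hg, hk, zero_smul]
    have h2 : (1 : Matrix (Fin n) (Fin n) F) = 0 := by
      have h3 : (g : Matrix (Fin n) (Fin n) F) *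
          ((g⁻¹ : Matrix.GeneralLinearGroup (Fin n) F) : Matrix (Fin n) (Fin n) F) = 1 := by
        rw [← Units.val_mul, mul_inv_cancel, Units.val_one]
      rw [← h3, h1, zero_mul]
    rw [h1, Units.val_one, one_smul, h2]
  · exact ⟨Units.mk0 k hk, by rw [hg]; rfl⟩

theorem es_base {F : Type*} [Field F] {n r : ℕ} (R : Subgroup (Matrix.GeneralLinearGroup (Fin n) F))
    (hr : r.Prime) (hZ : Nat.card (Subgroup.center R) = r) (hext : commutator R = Subgroup.center R)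
    (hirr : Cfsg.Geo.ActsAbsolutelyIrreducibly (Cfsg.Geo.matrixSet R)) :
    Base (R ⊔ Cfsg.Geo.scalars (Fin n) F) (Cfsg.Geo.scalars (Fin n) F) r := by
  classical
  have hcentral : ∀ s ∈ Cfsg.Geo.scalars (Fin n) F,
      ∀ a : Matrix.GeneralLinearGroup (Fin n) F, s * a = a * s := by
    intro s hs a
    obtain ⟨c, hc⟩ := (Cfsg.Geo.mem_scalars_iff s).1 hs
    apply Units.ext
    rw [Units.val_mul, Units.val_mul, hc, Matrix.smul_mul, Matrix.mul_smul, Matrix.one_mul,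
      Matrix.mul_one]
  -- elements commuting with `R` are scalar
  have hcent : ∀ a : Matrix.GeneralLinearGroup (Fin n) F, (∀ x ∈ R, a * x = x * a) →
      a ∈ Cfsg.Geo.scalars (Fin n) F := by
    intro a ha
    obtain ⟨k, hk⟩ := hirr.2 (a : Matrix (Fin n) (Fin n) F) (by
      rintro _ ⟨x, hx, rfl⟩
      have h1 := congrArg
        (fun u : Matrix.GeneralLinearGroup (Fin n) F => (u : Matrix (Fin n) (Fin n) F)) (ha x hx)
      simpa using h1)
    exact esbase_mem_scalars a k hk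
  -- commutators of elements of `R`
  have hcomR : ∀ a ∈ R, ∀ b ∈ R, a * b * a⁻¹ * b⁻¹ ∈ Cfsg.Geo.scalars (Fin n) F ∧
      (a * b * a⁻¹ * b⁻¹) ^ r = 1 := by
    intro a ha b hb
    have hc : ⁅(⟨a, ha⟩ : R), ⟨b, hb⟩⁆ ∈ commutator R := by
      rw [commutator_def]
      exact Subgroup.commutator_mem_commutator (Subgroup.mem_top _) (Subgroup.mem_top _)
    rw [hext] at hc
    have hval : ((⁅(⟨a, ha⟩ : R), ⟨b, hb⟩⁆ : R) : Matrix.GeneralLinearGroup (Fin n) F) =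
        a * b * a⁻¹ * b⁻¹ := by
      rw [commutatorElement_def]
      rfl
    constructor
    · apply hcent
      intro x hx
      have h1 := Subgroup.mem_center_iff.1 hc ⟨x, hx⟩
      have h2 := congrArg Subtype.val h1
      rw [← hval]
      exact h2.symm
    · have h1 : (⟨⁅(⟨a, ha⟩ : R), ⟨b, hb⟩⁆, hc⟩ : Subgroup.center R) ^ r = 1 := by
        rw [← hZ]
        exact pow_card_eq_one'
      have h2 := congrArg
        (fun u : Subgroup.center R => ((u : R) : Matrix.GeneralLinearGroup (Fin n) F)) h1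
      rw [← hval]
      simpa using h2
  have hdecomp : ∀ h ∈ R ⊔ Cfsg.Geo.scalars (Fin n) F,
      ∃ a ∈ R, ∃ s ∈ Cfsg.Geo.scalars (Fin n) F, h = a * s := by
    intro h hh
    have h1 : h ∈ ((R ⊔ Cfsg.Geo.scalars (Fin n) F : Subgroup _) : Set _) := hh
    rw [Subgroup.mul_normal] at h1
    obtain ⟨a, ha, s, hs, rfl⟩ := Set.mem_mul.1 h1
    exact ⟨a, ha, s, hs, rfl⟩
  have hcomH : ∀ a ∈ R ⊔ Cfsg.Geo.scalars (Fin n) F, ∀ b ∈ R ⊔ Cfsg.Geo.scalars (Fin n) F,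
      ∃ a₁ ∈ R, ∃ b₁ ∈ R, a * b * a⁻¹ * b⁻¹ = a₁ * b₁ * a₁⁻¹ * b₁⁻¹ := by
    intro a ha b hb
    obtain ⟨a₁, ha₁, s₁, hs₁, rfl⟩ := hdecomp a ha
    obtain ⟨b₁, hb₁, s₂, hs₂, rfl⟩ := hdecomp b hb
    refine ⟨a₁, ha₁, b₁, hb₁, ?_⟩
    calc (a₁ * s₁) * (b₁ * s₂) * (a₁ * s₁)⁻¹ * (b₁ * s₂)⁻¹
        = a₁ * (s₁ * (b₁ * s₂)) * s₁⁻¹ * a₁⁻¹ * (b₁ * s₂)⁻¹ := by group
      _ = a₁ * ((b₁ * s₂) * s₁) * s₁⁻¹ * a₁⁻¹ * (b₁ * s₂)⁻¹ := by rw [hcentral s₁ hs₁ (b₁ * s₂)]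
      _ = a₁ * b₁ * (s₂ * a₁⁻¹) * s₂⁻¹ * b₁⁻¹ := by group
      _ = a₁ * b₁ * (a₁⁻¹ * s₂) * s₂⁻¹ * b₁⁻¹ := by rw [hcentral s₂ hs₂ a₁⁻¹]
      _ = a₁ * b₁ * a₁⁻¹ * b₁⁻¹ := by group
  refine ⟨le_sup_right, hcentral, ?_, ?_, ?_⟩
  · intro a ha b hb
    obtain ⟨a₁, ha₁, b₁, hb₁, h⟩ := hcomH a ha b hb
    rw [h]
    exact (hcomR a₁ ha₁ b₁ hb₁).1
  · intro a ha b hb
    obtain ⟨a₁, ha₁, b₁, hb₁, h⟩ := hcomH a ha b hb
    rw [h]
    exact (hcomR a₁ ha₁ b₁ hb₁).2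
  · intro a ha
    exact hcent a (fun x hx => ha x (Subgroup.mem_sup_left hx))

end Cfsg.Agent.Lib.Helper44.ES
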