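import Mathlib
import Cfsg.Agent.Lib.Helper11.F15Def
import Cfsg.Agent.Lib.Helper32.TT5P7

/-!
# S1615, piece FIN (helper11's board): surjectivity of the Coxeter homomorphism
`Perm (Fin 5) →* G`
-/

set_option autoImplicit false

namespace Cfsg.Agent.Lib.Helper19.F15

open Cfsg Cfsg.Agent.Lib.Helper11

theorem f15_final {G : Type*} [Group G] [Finite G] {D : Set G} (h : TTPrim D) {x a a' e : G} (hx : x ∈ D) (ha : a ∈ ttNb D x)
    (ha' : a' ∈ ttNb D x) (hne : ¬ Commute a a')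
    (hall : ∀ y ∈ ttNb D x, y = a ∨ y = a' ∨ y = a * a' * a) (he : e ∈ D) (hex : ¬ Commute e x)
    (hea : Commute e a) (hea' : ¬ Commute e a') : Nonempty (G ≃* Equiv.Perm (Fin 5)) := by
  have hD := h.1
  obtain ⟨haD, hax, hxa⟩ := ha
  obtain ⟨ha'D, ha'x, hxa'⟩ := ha'
  obtain ⟨f, hinj, hf1, hf2, hf3, hf4⟩ := Cfsg.Agent.Lib.Helper32.TT5.cox x e a' a
    (tt_sq hD hx) (tt_sq hD he) (tt_sq hD ha'D) (tt_sq hD haD)
    (tt_braid hD hx he (fun hc => hex hc.symm)).1 (tt_braid hD he ha'D hea').1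
    (tt_braid hD ha'D haD (fun hc => hne hc.symm)).1 hxa'.eq hxa.eq hea.eq ha'x.symm
  let S : Set G := {t | ∃ π : Equiv.Perm (Fin 5), t = f (π * Equiv.swap 0 1 * π⁻¹)}
  have hxS : x ∈ S := ⟨1, by rw [one_mul, inv_one, mul_one, hf1]⟩
  have hclosed : ∀ t ∈ S, ∀ y ∈ D, Commute t y → y ∈ S := by
    rintro t ⟨π, rfl⟩ y hy hty
    have hy'D : (f π)⁻¹ * y * (f π) ∈ D := by
      have := tt_conj_mem hD hy (f π)⁻¹
      rw [inv_inv] at this
      exact this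
    have ht : f (π * Equiv.swap 0 1 * π⁻¹) = f π * x * (f π)⁻¹ := by
      rw [map_mul, map_mul, hf1, map_inv]
    rw [ht] at hty
    have hcomm : Commute x ((f π)⁻¹ * y * (f π)) := by
      have h1 : (f π * x * (f π)⁻¹) * y = y * (f π * x * (f π)⁻¹) := hty.eq
      have h2 : x * ((f π)⁻¹ * y * (f π)) = (f π)⁻¹ * ((f π * x * (f π)⁻¹) * y) * f π := by
        group
      have h3 : (f π)⁻¹ * y * (f π) * x = (f π)⁻¹ * (y * (f π * x * (f π)⁻¹)) * f π := by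
        group
      show x * ((f π)⁻¹ * y * (f π)) = (f π)⁻¹ * y * (f π) * x
      rw [h2, h3, h1]
    have hy_eq : y = f π * ((f π)⁻¹ * y * (f π)) * (f π)⁻¹ := by group
    by_cases hy'x : (f π)⁻¹ * y * (f π) = x
    · refine ⟨π, ?_⟩
      rw [ht, ← hy'x]
      group
    · have hnb : (f π)⁻¹ * y * (f π) ∈ ttNb D x := ⟨hy'D, hy'x, hcomm⟩
      have key : ∃ ρ : Equiv.Perm (Fin 5),
          (f π)⁻¹ * y * (f π) = f (ρ * Equiv.swap 0 1 * ρ⁻¹) := by
        have e1 : Equiv.swap (3 : Fin 5) 4 = (Equiv.swap (0 : Fin 5) 3 * Equiv.swap 1 4) *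
            Equiv.swap 0 1 * (Equiv.swap (0 : Fin 5) 3 * Equiv.swap 1 4)⁻¹ := by decide
        have e2 : Equiv.swap (2 : Fin 5) 3 = (Equiv.swap (0 : Fin 5) 2 * Equiv.swap 1 3) *
            Equiv.swap 0 1 * (Equiv.swap (0 : Fin 5) 2 * Equiv.swap 1 3)⁻¹ := by decide
        have e3 : Equiv.swap (3 : Fin 5) 4 * Equiv.swap 2 3 * Equiv.swap 3 4 =
            (Equiv.swap (0 : Fin 5) 2 * Equiv.swap 1 4) *
            Equiv.swap 0 1 * (Equiv.swap (0 : Fin 5) 2 * Equiv.swap 1 4)⁻¹ := by decide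
        rcases hall _ hnb with h1 | h1 | h1
        · refine ⟨Equiv.swap (0 : Fin 5) 3 * Equiv.swap 1 4, ?_⟩
          rw [h1, ← hf4, e1]
        · refine ⟨Equiv.swap (0 : Fin 5) 2 * Equiv.swap 1 3, ?_⟩
          rw [h1, ← hf3, e2]
        · refine ⟨Equiv.swap (0 : Fin 5) 2 * Equiv.swap 1 4, ?_⟩
          rw [h1, ← hf4, ← hf3, ← map_mul, ← map_mul, e3]
      obtain ⟨ρ, hρ⟩ := key
      refine ⟨π * ρ, ?_⟩
      rw [hy_eq, hρ, ← map_inv, ← map_mul, ← map_mul]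
      exact congrArg f (by group)
  have hDS : D ⊆ S := tt_conn h hx hxS hclosed
  have hsurj : Function.Surjective f := by
    rw [← MonoidHom.range_eq_top, eq_top_iff, ← hD.2.2, Subgroup.closure_le]
    intro d hd
    obtain ⟨π, hπ⟩ := hDS hd
    exact ⟨_, hπ.symm⟩
  exact ⟨(MulEquiv.ofBijective f ⟨hinj, hsurj⟩).symm⟩

end Cfsg.Agent.Lib.Helper19.F15
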