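import Cfsg.Agent.Lib.Helper98.H74Defs
import Cfsg.Agent.Lib.Helper89.HyBLOCK
import Cfsg.Agent.Lib.Helper96.SpBlock

/-!
# Project H74 (S5974), piece BLKE (for helper98)

The function-level form `B` is turned into a `LinearMap.BilinForm`; in characteristic 2 it is
alternating and `Helper96.Sp.exists_block` applies, otherwise it is symmetric and
`Helper89.Hy.exists_block` applies.
-/

set_option autoImplicit false

namespace Cfsg.Agent.Lib.Helper98.H74

open Cfsg.Agent.Lib.Helper47 Cfsg.Agent.Lib.Helper98.T73 Module Polynomial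

universe u

variable {F : Type u} [Field F] [Fintype F] {V : Type u} [AddCommGroup V] [Module F V]
  [FiniteDimensional F V] {Q : V → F} {B : V → V → F}

/-- BLKE -/
theorem blk_even (hQ : IsQuad Q B) (hnd : Nondeg B) (p : ℕ) [Fact p.Prime] [CharP F p]
    (r : ℕ) (hr : r.Prime) (hr2 : r ≠ 2) (hrp : r ≠ p) (g : Module.End F V) (hgQ : QI Q g)
    (hg : g ^ r = 1) (heven : Even (orderOf ((Fintype.card F : ℕ) : ZMod r)))
    (W : Submodule F V) (hWR : W ≤ LinearMap.range (g - 1)) (hWg : W.map g ≤ W)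
    (hWnd : Nondeg (resForm B W)) (hW0 : W ≠ ⊥) :
    ∃ Z : Submodule F V, Z ≤ W ∧ Z.map g ≤ Z ∧ Nondeg (resForm B Z) ∧
      finrank F Z = orderOf ((Fintype.card F : ℕ) : ZMod r) := by
  classical
  haveI : Fact r.Prime := ⟨hr⟩
  have hp : p.Prime := Fact.out
  -- the bilinear form
  let B' : LinearMap.BilinForm F V :=
    LinearMap.mk₂ F B hQ.form.add_left hQ.form.smul_left hQ.form.add_right hQ.form.smul_right
  have hN : Cfsg.Agent.Lib.Helper96.Sp.ND B' ⊤ :=
    fun u _ h => hnd u (fun y => h y Submodule.mem_top)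
  have hWnd' : Cfsg.Agent.Lib.Helper96.Sp.ND B' W := by
    intro u hu h
    have h1 := hWnd ⟨u, hu⟩ (fun y => h y.1 y.2)
    exact congrArg Subtype.val h1
  have hT : Cfsg.Agent.Lib.Helper96.Sp.Isom B' g := by
    intro x y
    show B (g x) (g y) = B x y
    have h1 := hQ.polar (g x) (g y)
    have h2 := hQ.polar x y
    rw [← map_add, hgQ, hgQ, hgQ, h2] at h1
    exact (add_left_cancel h1).symm
  have hrq : ¬ r ∣ Fintype.card F := by
    obtain ⟨n, -, hn⟩ := FiniteField.card F p
    rw [hn]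
    intro h
    exact hrp ((Nat.prime_dvd_prime_iff_eq hr hp).mp (hr.dvd_of_dvd_pow h))
  have hr0 : (r : F) ≠ 0 := by
    intro h
    rw [CharP.cast_eq_zero_iff F p] at h
    exact hrp ((Nat.prime_dvd_prime_iff_eq hp hr).mp h).symm
  have hblk : Cfsg.Agent.Lib.Helper96.Sp.blk (Fintype.card F) r =
      orderOf ((Fintype.card F : ℕ) : ZMod r) := by
    unfold Cfsg.Agent.Lib.Helper96.Sp.blk
    rw [if_pos heven]
  have hfin : ∀ P : Submodule F V, Cfsg.Agent.Lib.Helper96.Sp.ND B' P →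
      Nondeg (resForm B P) := by
    intro P hP x hx
    apply Subtype.ext
    exact hP x.1 x.2 (fun v hv => hx ⟨v, hv⟩)
  by_cases h2 : (2 : F) = 0
  · have hA : B'.IsAlt := by
      intro x
      show B x x = 0
      have h1 := hQ.polar x x
      have h3 : x + x = (2 : F) • x := (two_smul F x).symm
      have h4 : Q x + Q x = 0 := by rw [← two_mul, h2, zero_mul]
      rw [h3, hQ.smul, h2, h4, zero_add] at h1
      rw [← h1]
      simp
    obtain ⟨P, hPW, hPg, hPnd, hPi⟩ :=
      Cfsg.Agent.Lib.Helper96.Sp.exists_block hA hN g hT r hr2 hrq hr0 hg W hWg hWnd' hWR hW0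
    exact ⟨P, hPW, hPg, hfin P hPnd, hPi.trans hblk⟩
  · have hS : B'.IsSymm := ⟨fun x y => by
      show B x y = B y x
      have h1 := hQ.form.symm y x
      simpa using h1⟩
    obtain ⟨P, hPW, hPg, hPnd, hPi⟩ :=
      Cfsg.Agent.Lib.Helper89.Hy.exists_block hS h2 hN g hT r hr2 hrq hr0 hg W hWg hWnd' hWR hW0
    exact ⟨P, hPW, hPg, hfin P hPnd, hPi.trans hblk⟩

end Cfsg.Agent.Lib.Helper98.H74
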