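import Mathlib
import Cfsg.Agent.Lib.Helper72.JPDefs

/-!
# Project JP (helper72), piece K4D (helper19)

The subgroup `A₁ = C_A(K/P)` of index at most two in a largest elementary abelian subgroup `A`.
-/

set_option autoImplicit false

namespace Cfsg.Agent.Lib.Helper19.JP

open Cfsg.Agent.Lib.Helper72.JP Cfsg.Agent.Lib.Helper72.JM Cfsg.Agent.Lib.Helper72.JL
  Cfsg.Agent.Lib.Helper72.SC Cfsg.Agent.Lib.Helper78.Jc

open scoped commutatorElement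

universe u

theorem k4d (h1 : KbStmt.{u}) (h2 : KjStmt.{u}) : K4dStmt.{u} := by
  intro X _ _ T hS a k hseed A hA haA
  have hseed' := hseed
  obtain ⟨-, hk3, hak, hρk, -⟩ := hseed
  have hQn : (Cfsg.pCore 2 X).Normal := Subgroup.sSup_normal _ (fun H hH => hH.1)
  have hQ2 : IsPGroup 2 ↥(Cfsg.pCore 2 X) :=
    Sylow.sSup_of_normal _ (fun _ hK => hK.2) (fun _ hK => hK.1)
  have hk1 : k ≠ 1 := by
    rintro rfl
    exact hρk (map_one _)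
  have hkK : k ∈ KOf (Cfsg.pCore 2 X) k :=
    Subgroup.subset_closure ⟨1, one_mem _, by simp⟩
  obtain ⟨-, -, hdec, -⟩ := h1 X (Cfsg.pCore 2 X) k hQn hQ2 hk3 hk1
  obtain ⟨hJN, -⟩ := h2 X T hS a k hseed'
  have hAJ : A ≤ JT T := le_sSup hA
  have hAK : ∀ x ∈ A, ∀ y, y ∈ KOf (Cfsg.pCore 2 X) k ↔
      x * y * x⁻¹ ∈ KOf (Cfsg.pCore 2 X) k := fun x hx =>
    Subgroup.mem_normalizer_iff.mp (hJN (hAJ hx))
  have hAP : ∀ x ∈ A, ∀ y ∈ KOf (Cfsg.pCore 2 X) k ⊓ Cfsg.pCore 2 X,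
      x * y * x⁻¹ ∈ KOf (Cfsg.pCore 2 X) k ⊓ Cfsg.pCore 2 X := fun x hx y hy =>
    ⟨(hAK x hx y).mp hy.1, hQn.conj_mem y hy.2 x⟩
  have hkP : ∀ y ∈ KOf (Cfsg.pCore 2 X) k ⊓ Cfsg.pCore 2 X,
      k * y * k⁻¹ ∈ KOf (Cfsg.pCore 2 X) k ⊓ Cfsg.pCore 2 X := fun y hy =>
    ⟨Subgroup.mul_mem _ (Subgroup.mul_mem _ hkK hy.1) (Subgroup.inv_mem _ hkK),
      hQn.conj_mem y hy.2 k⟩
  have hAsq : ∀ x ∈ A, x * x = 1 := hA.2.2.1
  have hAinv : ∀ x ∈ A, x⁻¹ = x := fun x hx => inv_eq_of_mul_eq_one_left (hAsq x hx)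
  obtain ⟨A₁, hA₁⟩ : ∃ A₁ : Subgroup X, ∀ x, x ∈ A₁ ↔
      (x ∈ A ∧ x * k * x⁻¹ * k⁻¹ ∈ KOf (Cfsg.pCore 2 X) k ⊓ Cfsg.pCore 2 X) := by
    refine ⟨{ carrier := {x | x ∈ A ∧
                x * k * x⁻¹ * k⁻¹ ∈ KOf (Cfsg.pCore 2 X) k ⊓ Cfsg.pCore 2 X}
              one_mem' := ?_
              mul_mem' := ?_
              inv_mem' := ?_ }, fun x => Iff.rfl⟩
    · intro x y hxx hyy
      obtain ⟨hx, hx'⟩ := hxx
      obtain ⟨hy, hy'⟩ := hyy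
      refine ⟨A.mul_mem hx hy, ?_⟩
      have e : x * y * k * (x * y)⁻¹ * k⁻¹ =
          x * (y * k * y⁻¹ * k⁻¹) * x⁻¹ * (x * k * x⁻¹ * k⁻¹) := by group
      rw [e]
      exact Subgroup.mul_mem _ (hAP x hx _ hy') hx'
    · refine ⟨A.one_mem, ?_⟩
      have e : (1 : X) * k * 1⁻¹ * k⁻¹ = 1 := by group
      rw [e]
      exact Subgroup.one_mem _
    · intro x hxx
      obtain ⟨hx, hx'⟩ := hxx
      rw [hAinv x hx]
      exact ⟨hx, hx'⟩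
  refine ⟨A₁, fun x hx => ((hA₁ x).mp hx).1, ?_, fun x hx => ((hA₁ x).mp hx).2⟩
  intro x hx
  have hxk : x * k * x⁻¹ ∈ KOf (Cfsg.pCore 2 X) k := (hAK x hx k).mp hkK
  obtain ⟨p, hp, i, hi⟩ := hdec _ hxk
  have hki : k ^ i = k ^ (i % 3) := pow_eq_pow_mod i hk3
  rw [hki] at hi
  have hlt : i % 3 < 3 := Nat.mod_lt _ (by norm_num)
  rcases (show i % 3 = 0 ∨ i % 3 = 1 ∨ i % 3 = 2 by omega) with h | h | h
  · exfalso
    rw [h, pow_zero, mul_one] at hi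
    have hkQ : k ∈ Cfsg.pCore 2 X := by
      have h4 := hQn.conj_mem p hp.2 x⁻¹
      rw [← hi] at h4
      have e : x⁻¹ * (x * k * x⁻¹) * x⁻¹⁻¹ = k := by group
      rwa [e] at h4
    obtain ⟨n, hn⟩ := hQ2 ⟨k, hkQ⟩
    have hn' : k ^ 2 ^ n = 1 := by simpa using congrArg Subtype.val hn
    have h5 : orderOf k ∣ 2 ^ n := orderOf_dvd_of_pow_eq_one hn'
    have h6 : orderOf k ∣ 3 := orderOf_dvd_of_pow_eq_one hk3
    have h7 : Nat.Coprime (2 ^ n) 3 := Nat.Coprime.pow_left _ (by norm_num)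
    exact hk1 (orderOf_eq_one_iff.mp (Nat.eq_one_of_dvd_coprimes h7 h5 h6))
  · left
    rw [hA₁]
    refine ⟨hx, ?_⟩
    rw [h, pow_one] at hi
    rw [hi]
    have e : p * k * k⁻¹ = p := by group
    rw [e]
    exact hp
  · right
    rw [hA₁]
    refine ⟨A.mul_mem hx haA, ?_⟩
    have hk2 : k ^ 2 = k⁻¹ := by
      have h8 : k ^ 2 * k = 1 := by rw [← pow_succ]; exact hk3
      exact eq_inv_of_mul_eq_one_left h8
    rw [h, hk2] at hi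
    have e : x * a * k * (x * a)⁻¹ * k⁻¹ = x * (a * k * a⁻¹) * x⁻¹ * k⁻¹ := by group
    rw [e, hak]
    have e2 : x * k⁻¹ * x⁻¹ * k⁻¹ = (x * k * x⁻¹)⁻¹ * k⁻¹ := by group
    rw [e2, hi]
    have e3 : (p * k⁻¹)⁻¹ * k⁻¹ = k * p⁻¹ * k⁻¹ := by group
    rw [e3]
    exact hkP _ (Subgroup.inv_mem _ hp)

end Cfsg.Agent.Lib.Helper19.JP
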