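import Mathlib
import Cfsg.Prelude.Def_GeometricClasses
import Cfsg.Agent.Lib.Helper71.OK1
import Cfsg.Agent.Lib.Helper52.Siegel
import Cfsg.Agent.Lib.Helper51.OKH1

/-!
# S5701, piece H4 (helper71's board): `HP_of_ZW2`

`HP_of_ZW2_of` is the statement with the two pieces it uses (H3 `EM_orth_of_ZW` and GEOM2
`exists_hyp_perp`) as explicit hypotheses.
-/

set_option autoImplicit false
set_option linter.unusedVariables false

namespace Cfsg.Agent.Lib.Helper19.OKH4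

open Matrix Cfsg.Agent.Lib.Helper71.SpK Cfsg.Agent.Lib.Helper71.OK

/-- H4 with the pieces H3 and GEOM2 (for this `S`, `M`) as hypotheses. -/
theorem HP_of_ZW2_of {ι : Type} [Fintype ι] [DecidableEq ι] {F : Type*} [Field F] [Finite F]
    {Q : QuadraticForm F (ι → F)} {L : Type*} [Field L] [Algebra F L] [FiniteDimensional F L]
    (S : KO (QuadraticMap.polar ⇑Q) L) (h2 : (2 : F) ≠ 0)
    (M : Subgroup (GL ι F))
    (hH3 : ∀ {v z : ι → F}, v ≠ 0 → S.B v v = 0 → S.B z z = 0 → S.B v z = 0 →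
      z ∉ S.line v → ∀ a b : L, EM Q M (S.φ a *ᵥ v) (S.φ b *ᵥ z))
    (hG2 : ∀ {v v₂ : ι → F}, S.B v v = 0 → S.B v₂ v₂ = 0 → S.B v v₂ = 1 →
      ∃ z z₂, S.B z z = 0 ∧ S.B z₂ z₂ = 0 ∧ S.B z z₂ = 1 ∧ S.B z v = 0 ∧ S.B z v₂ = 0 ∧
        S.B z₂ v = 0 ∧ S.B z₂ v₂ = 0) : S.HP M := by
  intro v v₂ hv hv₂ hvv₂ c hc
  obtain ⟨z, z₂, hz, hz₂, hzz₂, hzv, hzv₂, hz₂v, hz₂v₂⟩ := hG2 hv hv₂ hvv₂
  obtain ⟨b, hb⟩ := S.exists_β_eq (c := (1 : L)) one_ne_zero (1 : F)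
  rw [mul_one] at hb
  have hvz : S.B v z = 0 := by rw [S.B_symm]; exact hzv
  have hv₂z₂ : S.B v₂ z₂ = 0 := by rw [S.B_symm]; exact hz₂v₂
  have hvz₂ : S.B v z₂ = 0 := by rw [S.B_symm]; exact hz₂v
  have hv0 : v ≠ 0 := by
    rintro rfl
    rw [S.B_zero_left] at hvv₂
    exact zero_ne_one hvv₂
  have hv₂0 : v₂ ≠ 0 := by
    rintro rfl
    rw [S.B_zero_right] at hvv₂
    exact zero_ne_one hvv₂
  have hzl : z ∉ S.line v := by
    intro hmem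
    obtain ⟨l, rfl⟩ := S.mem_line.mp hmem
    rw [S.B_act, hvz₂, mul_zero] at hzz₂
    exact zero_ne_one hzz₂
  have hz₂l : z₂ ∉ S.line v₂ := by
    intro hmem
    obtain ⟨l, rfl⟩ := S.mem_line.mp hmem
    rw [S.B_act_right, hzv₂, mul_zero] at hzz₂
    exact zero_ne_one hzz₂
  have hA : EM Q M v z := by
    have := hH3 hv0 hv hz hvz hzl 1 1
    rwa [S.φ_one_mulVec, S.φ_one_mulVec] at this
  have hC : EM Q M (S.φ c *ᵥ v₂) (S.φ b *ᵥ z₂) := hH3 hv₂0 hv₂ hz₂ hv₂z₂ hz₂l c b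
  refine Cfsg.Agent.Lib.Helper51.OKH1.EM_comm Q M (x := v) (x' := z) (y := S.φ c *ᵥ v₂)
    (y' := S.φ b *ᵥ z₂) (S.Q_eq_zero h2 hv) (S.Q_eq_zero h2 hz) (S.Q_eq_zero h2 ?_)
    (S.Q_eq_zero h2 ?_) ?_ ?_ ?_ ?_ ?_ ?_ hA hC
  · rw [S.B_act, S.B_act_right, hv₂, mul_zero, mul_zero]
  · rw [S.B_act, S.B_act_right, hz₂, mul_zero, mul_zero]
  · rw [S.f_eq, hvz, map_zero]
  · rw [S.f_eq, S.B_act, S.B_act_right, hv₂z₂, mul_zero, mul_zero, map_zero]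
  · rw [S.f_act_right, hvv₂, mul_one, hc]
  · rw [S.f_act_right, hvz₂, mul_zero, map_zero]
  · rw [S.f_act_right, hzv₂, mul_zero, map_zero]
  · rw [S.f_act_right, hzz₂, mul_one, hb]

end Cfsg.Agent.Lib.Helper19.OKH4
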