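import Mathlib
import Cfsg.Prelude.Def_GeometricClasses
import Cfsg.Agent.Lib.Helper71.OK1
import Cfsg.Agent.Lib.Helper52.Siegel
import Cfsg.Agent.Lib.Helper19.OKH4
import Cfsg.Agent.Lib.Helper71.OKH3
import Cfsg.Agent.Lib.Helper57.OKGEOM2

/-!
# S5701, piece H4 (helper71's board): `HP_of_ZW2`, exact statement of the skeleton
-/

set_option autoImplicit false
set_option linter.unusedVariables false

namespace Cfsg.Agent.Lib.Helper19.OKH4

open Matrix Cfsg.Agent.Lib.Helper71.SpK Cfsg.Agent.Lib.Helper71.OK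

theorem HP_of_ZW2 {ι : Type} [Fintype ι] [DecidableEq ι] {F : Type*} [Field F] [Finite F]
    {Q : QuadraticForm F (ι → F)} {L : Type*} [Field L] [Algebra F L] [FiniteDimensional F L]
    (S : KO (QuadraticMap.polar ⇑Q) L) (h2 : (2 : F) ≠ 0)
    (hQ : (QuadraticMap.polarBilin Q).Nondegenerate)
    (hr : (Module.finrank F L).Prime) (hd : 4 * Module.finrank F L ≤ Fintype.card ι) (M : Subgroup (GL ι F)) (hNM : S.NO Q ≤ M) (hMΩ : M ≤ Cfsg.Geo.omegaGL ⇑Q) (h5 : 5 * Module.finrank F L ≤ Fintype.card ι)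
    (hZ : ∀ v : ι → F, v ≠ 0 → S.B v v = 0 → S.ZW M v) : S.HP M :=
  HP_of_ZW2_of S h2 M
    (fun hv0 hv hz hvz hzv a b =>
      Cfsg.Agent.Lib.Helper71.OKH3.EM_orth_of_ZW S h2 hQ hr hd M hNM hMΩ hZ hv0 hv hz hvz hzv a b)
    (fun hv hv₂ hvv₂ =>
      Cfsg.Agent.Lib.Helper57.OKGEOM2.exists_hyp_perp S h2 hQ hr hd h5 hv hv₂ hvv₂)

end Cfsg.Agent.Lib.Helper19.OKH4
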