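import Mathlib
import Cfsg.Prelude.Def_GeometricClasses
import Cfsg.Prelude.Def_LieClassical
import Cfsg.Agent.Lib.Helper67.ASNL

/-!
# Project OMP (helper71), piece OA

A finite field of non-prime order has a subfield of prime index.
-/

set_option autoImplicit false

namespace Cfsg.Agent.Lib.Helper19.OMPOA

open Matrix Cfsg.Geo

variable {n : ℕ} {F : Type*} [Field F] [Fintype F]

/-- OA: a finite field of non-prime order has a subfield of prime index. -/
theorem OA (h : ¬ (Fintype.card F).Prime) :
    ∃ (F₀ : Subfield F) (r : ℕ), r.Prime ∧ Fintype.card F = Nat.card F₀ ^ r := by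
  have hne : (⊥ : Subfield F) ≠ ⊤ := by
    intro hbt
    apply h
    obtain ⟨p, hchar⟩ := CharP.exists F
    haveI : CharP F p := hchar
    haveI : Fact p.Prime := ⟨CharP.char_is_prime F p⟩
    have h1 : Nat.card (⊥ : Subfield F) = p := Subfield.card_bot F p
    rw [hbt] at h1
    have h2 : Nat.card (⊤ : Subfield F) = Nat.card F := Nat.card_congr Subfield.topEquiv.toEquiv
    rw [h2, Nat.card_eq_fintype_card] at h1
    rw [h1]
    exact Fact.out
  obtain ⟨F₁, r, τ, hr, hcard, -, -⟩ := Cfsg.Agent.Lib.Helper67.ASNL.exists_subfield_aut ⊥ hne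
  exact ⟨F₁, r, hr, hcard⟩

end Cfsg.Agent.Lib.Helper19.OMPOA
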