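import Cfsg.Agent.Lib.Helper47.OmcDefs

/-!
# OMC piece ALPHA (for helper47, S2683–S2685): for `A ∈ Sp` there is a unique `a` with
`Q (A v) = Q v + B(a, v)²` (characteristic two, finite field).
-/

set_option autoImplicit false

namespace Cfsg.Agent.Lib.Helper19.Omc

open Cfsg.Agent.Lib.Helper47 Matrix

variable {F : Type*} [Field F]

theorem alpha_spForm_single_inl (m : ℕ) (b : Fin m ⊕ Fin m → F) (i : Fin m) :
    spForm (Fin m) F b (Pi.single (Sum.inl i) 1) = b (Sum.inr i) := by
  rw [spForm_eq_sum]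
  simp [Pi.single_apply]

theorem alpha_spForm_single_inr (m : ℕ) (b : Fin m ⊕ Fin m → F) (i : Fin m) :
    spForm (Fin m) F b (Pi.single (Sum.inr i) 1) = - b (Sum.inl i) := by
  rw [spForm_eq_sum]
  simp [Pi.single_apply]

-- PIECE ALPHA
theorem exists_unique_alpha [Fintype F] [CharP F 2] (m : ℕ)
    (A : Matrix (Fin m ⊕ Fin m) (Fin m ⊕ Fin m) F) (hA : A ∈ Matrix.symplecticGroup (Fin m) F) :
    ∃! a : Fin m ⊕ Fin m → F, ∀ v, Cfsg.quadFormPlus m F (A *ᵥ v)
      = Cfsg.quadFormPlus m F v + (spForm (Fin m) F a v) ^ 2 := by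
  haveI : Fact (Nat.Prime 2) := ⟨Nat.prime_two⟩
  have h2 : (2 : F) = 0 := CharTwo.two_eq_zero
  -- squaring is bijective
  have hinj : Function.Injective (fun x : F => x ^ 2) := by
    intro x y hxy
    have hxy' : x ^ 2 = y ^ 2 := hxy
    have h : (x - y) ^ 2 = 0 := by
      linear_combination hxy' - (x * y - y ^ 2) * h2
    exact sub_eq_zero.mp ((pow_eq_zero_iff (n := 2) two_ne_zero).mp h)
  have hsurj : Function.Surjective (fun x : F => x ^ 2) := Finite.surjective_of_injective hinj
  choose sq hsq using hsurj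
  have hsq' : ∀ b : F, sq b ^ 2 = b := hsq
  -- the difference `D v = Q (A v) + Q v` is additive and quadratic
  let D : (Fin m ⊕ Fin m → F) →+ F :=
    { toFun := fun v => Cfsg.quadFormPlus m F (A *ᵥ v) + Cfsg.quadFormPlus m F v
      map_zero' := by
        rw [Matrix.mulVec_zero, qplus_zero, add_zero]
      map_add' := by
        intro v w
        have hiso := spForm_isometry hA v w
        rw [Matrix.toLin'_apply, Matrix.toLin'_apply] at hiso
        rw [Matrix.mulVec_add, qplus_add, qplus_add, hiso]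
        linear_combination (spForm (Fin m) F v w) * h2 }
  have hD : ∀ v, D v = Cfsg.quadFormPlus m F (A *ᵥ v) + Cfsg.quadFormPlus m F v := fun _ => rfl
  have hDsmul : ∀ (c : F) (v : Fin m ⊕ Fin m → F), D (c • v) = c ^ 2 * D v := by
    intro c v
    rw [hD, hD, Matrix.mulVec_smul, qplus_smul, qplus_smul]
    ring
  have hDsum : ∀ v : Fin m ⊕ Fin m → F,
      D v = ∑ i : Fin m, v (Sum.inl i) ^ 2 * D (Pi.single (Sum.inl i) 1)
        + ∑ i : Fin m, v (Sum.inr i) ^ 2 * D (Pi.single (Sum.inr i) 1) := by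
    intro v
    have h1 : v = ∑ j, v j • (Pi.single j (1 : F) : Fin m ⊕ Fin m → F) := by
      conv_lhs => rw [← Finset.univ_sum_single v]
      apply Finset.sum_congr rfl
      intro j _
      rw [← Pi.single_smul, smul_eq_mul, mul_one]
    conv_lhs => rw [h1]
    rw [map_sum, Fintype.sum_sum_type]
    simp only [hDsmul]
  -- the vector `a`
  have hkey : ∀ v : Fin m ⊕ Fin m → F,
      spForm (Fin m) F (Sum.elim (fun i => sq (D (Pi.single (Sum.inr i) 1)))
        (fun i => sq (D (Pi.single (Sum.inl i) 1)))) v ^ 2 = D v := by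
    intro v
    rw [spForm_eq_sum, sum_pow_char 2, hDsum, ← Finset.sum_add_distrib]
    apply Finset.sum_congr rfl
    intro i _
    simp only [Sum.elim_inl, Sum.elim_inr]
    have e1 := hsq' (D (Pi.single (Sum.inl i) 1))
    have e2 := hsq' (D (Pi.single (Sum.inr i) 1))
    linear_combination (v (Sum.inl i)) ^ 2 * e1 + (v (Sum.inr i)) ^ 2 * e2
      - (sq (D (Pi.single (Sum.inl i) 1)) * v (Sum.inl i) *
          (sq (D (Pi.single (Sum.inr i) 1)) * v (Sum.inr i))) * h2
  refine ⟨Sum.elim (fun i => sq (D (Pi.single (Sum.inr i) 1)))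
    (fun i => sq (D (Pi.single (Sum.inl i) 1))), ?_, ?_⟩
  · intro v
    rw [hkey, hD]
    linear_combination (-(Cfsg.quadFormPlus m F v)) * h2
  · intro a' ha'
    have heq : ∀ v, spForm (Fin m) F a' v = spForm (Fin m) F
        (Sum.elim (fun i => sq (D (Pi.single (Sum.inr i) 1)))
          (fun i => sq (D (Pi.single (Sum.inl i) 1)))) v := by
      intro v
      apply hinj
      show spForm (Fin m) F a' v ^ 2 = spForm (Fin m) F _ v ^ 2
      rw [hkey, hD]
      have h1 := ha' v
      linear_combination (-1 : F) * h1 - (Cfsg.quadFormPlus m F v) * h2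
    funext j
    rcases j with i | i
    · have h1 := heq (Pi.single (Sum.inr i) 1)
      rw [alpha_spForm_single_inr, alpha_spForm_single_inr] at h1
      exact neg_injective h1
    · have h1 := heq (Pi.single (Sum.inl i) 1)
      rw [alpha_spForm_single_inl, alpha_spForm_single_inl] at h1
      exact h1

end Cfsg.Agent.Lib.Helper19.Omc
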