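import Mathlib

/-!
# S5981 (helper96), piece NSQMODEL

For a diagonal form `∑ a_i w_i ^ 2` on `F ^ (2 m)` (`a_i ≠ 0`, `F` finite of odd order) and any `z`
there is a matrix `J` with `J * J = z • 1` multiplying the form by `z`.
-/

set_option autoImplicit false

namespace Cfsg.Agent.Lib.Helper19.Oq

open Polynomial Matrix

/-- weighted sums of two squares represent everything in a finite field of odd order -/
theorem nsq_two_sq {F : Type*} [Field F] [Fintype F] (h2 : (2 : F) ≠ 0) (a₁ a₂ c : F)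
    (h1 : a₁ ≠ 0) (h2' : a₂ ≠ 0) : ∃ α γ : F, a₁ * α ^ 2 + a₂ * γ ^ 2 = c := by
  have hchar : ringChar F ≠ 2 := by
    intro h
    haveI : CharP F 2 := ringChar.of_eq h
    apply h2
    have h3 := CharP.cast_eq_zero F 2
    exact_mod_cast h3
  have hodd : Fintype.card F % 2 = 1 := FiniteField.odd_card_of_char_ne_two hchar
  have hf : (C a₁ * X ^ 2 - C c : F[X]).degree = 2 := by
    rw [Polynomial.degree_sub_eq_left_of_degree_lt]
    · exact Polynomial.degree_C_mul_X_pow 2 h1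
    · rw [Polynomial.degree_C_mul_X_pow 2 h1]
      exact lt_of_le_of_lt Polynomial.degree_C_le (by norm_num)
  have hg : (C a₂ * X ^ 2 : F[X]).degree = 2 := Polynomial.degree_C_mul_X_pow 2 h2'
  obtain ⟨α, γ, h⟩ := FiniteField.exists_root_sum_quadratic hf hg hodd
  refine ⟨α, γ, ?_⟩
  simp only [eval_sub, eval_mul, eval_C, eval_pow, eval_X] at h
  linear_combination h

/-- transfer along an equivalence of index types -/
theorem nsq_transfer {F : Type*} [Field F] {ι κ : Type*} [Fintype ι] [Fintype κ]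
    [DecidableEq ι] [DecidableEq κ] (e : ι ≃ κ) (a : κ → F) (z : F) (J' : Matrix ι ι F)
    (h1 : J' * J' = z • (1 : Matrix ι ι F))
    (h2 : ∀ w : ι → F, ∑ i, a (e i) * ((J' *ᵥ w) i) ^ 2 = z * ∑ i, a (e i) * (w i) ^ 2) :
    ∃ J : Matrix κ κ F, J * J = z • (1 : Matrix κ κ F) ∧
      ∀ w : κ → F, ∑ i, a i * ((J *ᵥ w) i) ^ 2 = z * ∑ i, a i * (w i) ^ 2 := by
  refine ⟨J'.submatrix e.symm e.symm, ?_, ?_⟩
  · rw [Matrix.submatrix_mul_equiv, h1]
    ext i j
    simp [Matrix.one_apply]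
  · intro w
    have h3 := h2 (w ∘ e)
    rw [Matrix.submatrix_mulVec_equiv]
    rw [← Equiv.sum_comp e (fun i => a i * (((J' *ᵥ (w ∘ e.symm.symm)) ∘ e.symm) i) ^ 2),
      ← Equiv.sum_comp e (fun i => a i * w i ^ 2)]
    simpa using h3

/-- `mulVec` by a block diagonal matrix with `2 × 2` blocks -/
theorem nsq_blockDiagonal_mulVec {F : Type*} [Field F] {m : ℕ}
    (M : Fin m → Matrix (Fin 2) (Fin 2) F) (w : Fin 2 × Fin m → F) (s : Fin 2) (j : Fin m) :
    (Matrix.blockDiagonal M *ᵥ w) (s, j) = M j s 0 * w (0, j) + M j s 1 * w (1, j) := by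
  simp only [Matrix.mulVec, dotProduct, Matrix.blockDiagonal_apply]
  rw [Fintype.sum_prod_type, Fin.sum_univ_two]
  simp [ite_mul, Finset.sum_ite_eq]

theorem exists_nsq_model {F : Type*} [Field F] [Fintype F] (h2 : (2 : F) ≠ 0) (n m : ℕ)
    (hn : n = 2 * m) (a : Fin n → F) (ha : ∀ i, a i ≠ 0) (z : F) (hz : z ≠ 0) :
    ∃ J : Matrix (Fin n) (Fin n) F, J * J = z • (1 : Matrix (Fin n) (Fin n) F) ∧
      ∀ w : Fin n → F, (∑ i, a i * ((J *ᵥ w) i) ^ 2) = z * ∑ i, a i * (w i) ^ 2 := by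
  classical
  obtain ⟨e⟩ : Nonempty (Fin 2 × Fin m ≃ Fin n) := ⟨finProdFinEquiv.trans (finCongr hn.symm)⟩
  have hex : ∀ j : Fin m, ∃ α γ : F,
      a (e (0, j)) * α ^ 2 + a (e (1, j)) * γ ^ 2 = z * a (e (0, j)) :=
    fun j => nsq_two_sq h2 _ _ _ (ha _) (ha _)
  choose α γ hαγ using hex
  obtain ⟨β, hβdef⟩ : ∃ β : Fin m → F, β = fun j => a (e (1, j)) * γ j / a (e (0, j)) :=
    ⟨_, rfl⟩
  have hβ : ∀ j, a (e (0, j)) * β j = a (e (1, j)) * γ j := fun j => by
    rw [hβdef]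
    exact mul_div_cancel₀ _ (ha (e (0, j)))
  have hzj : ∀ j, α j ^ 2 + β j * γ j = z := fun j => by
    apply mul_left_cancel₀ (ha (e (0, j)))
    linear_combination hαγ j + γ j * hβ j
  obtain ⟨M, hMdef⟩ : ∃ M : Fin m → Matrix (Fin 2) (Fin 2) F,
      M = fun j => !![α j, β j; γ j, -α j] := ⟨_, rfl⟩
  have hM00 : ∀ j, M j 0 0 = α j := fun j => by rw [hMdef]; rfl
  have hM01 : ∀ j, M j 0 1 = β j := fun j => by rw [hMdef]; rfl
  have hM10 : ∀ j, M j 1 0 = γ j := fun j => by rw [hMdef]; rfl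
  have hM11 : ∀ j, M j 1 1 = -α j := fun j => by rw [hMdef]; rfl
  have hMM : ∀ j, M j * M j = z • (1 : Matrix (Fin 2) (Fin 2) F) := by
    intro j
    ext s t
    fin_cases s <;> fin_cases t
    · show (M j * M j) 0 0 = (z • (1 : Matrix (Fin 2) (Fin 2) F)) 0 0
      rw [Matrix.mul_apply, Fin.sum_univ_two, hM00, hM01, hM10, Matrix.smul_apply,
        Matrix.one_apply_eq, smul_eq_mul, mul_one]
      linear_combination hzj j
    · show (M j * M j) 0 1 = (z • (1 : Matrix (Fin 2) (Fin 2) F)) 0 1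
      rw [Matrix.mul_apply, Fin.sum_univ_two, hM00, hM01, hM11, Matrix.smul_apply,
        Matrix.one_apply_ne (by decide), smul_zero]
      ring
    · show (M j * M j) 1 0 = (z • (1 : Matrix (Fin 2) (Fin 2) F)) 1 0
      rw [Matrix.mul_apply, Fin.sum_univ_two, hM00, hM10, hM11, Matrix.smul_apply,
        Matrix.one_apply_ne (by decide), smul_zero]
      ring
    · show (M j * M j) 1 1 = (z • (1 : Matrix (Fin 2) (Fin 2) F)) 1 1
      rw [Matrix.mul_apply, Fin.sum_univ_two, hM01, hM10, hM11, Matrix.smul_apply,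
        Matrix.one_apply_eq, smul_eq_mul, mul_one]
      linear_combination hzj j
  apply nsq_transfer e a z (Matrix.blockDiagonal M)
  · rw [← Matrix.blockDiagonal_mul]
    have h3 : (fun k => M k * M k) = z • (1 : Fin m → Matrix (Fin 2) (Fin 2) F) := by
      funext k
      rw [hMM k]
      rfl
    rw [h3, Matrix.blockDiagonal_smul, Matrix.blockDiagonal_one]
  · intro w
    rw [Fintype.sum_prod_type_right, Fintype.sum_prod_type_right, Finset.mul_sum]
    refine Finset.sum_congr rfl fun j _ => ?_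
    rw [Fin.sum_univ_two, Fin.sum_univ_two, nsq_blockDiagonal_mulVec, nsq_blockDiagonal_mulVec,
      hM00, hM01, hM10, hM11]
    linear_combination (w (0, j)) ^ 2 * hαγ j + a (e (1, j)) * (w (1, j)) ^ 2 * hzj j +
      (2 * α j * w (0, j) * w (1, j) + β j * (w (1, j)) ^ 2) * hβ j

end Cfsg.Agent.Lib.Helper19.Oq
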