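import Mathlib
import Cfsg.Agent.Lib.Helper53.MinusDefs
import Cfsg.Agent.Lib.Helper53.OddFE
import Cfsg.Agent.Lib.Helper54.OrthInnPlus
import Cfsg.Agent.Lib.Helper57.MFCOVER

/-!
# Project PF (helper52, S2715), piece COVER (helper19): odd characteristic, odd order,
`Inndiag(PΩ⁺) = Inn · C_Inndiag(φ)` for a standard field automorphism `φ`.

Port of helper57's `MFCOVER` (minus type) to the plus type; the abstract decomposition
`Helper57.MFCOVER.cover_core` is reused.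
-/

set_option autoImplicit false
set_option linter.unusedSectionVars false
set_option linter.unusedVariables false

namespace Cfsg.Agent.Lib.Helper52.PF

open Module QuadraticMap Matrix
open Cfsg Cfsg.Agent.Lib.Helper51 Cfsg.Agent.Lib.Helper51.GammaO Cfsg.Agent.Lib.Helper52
  Cfsg.Agent.Lib.Helper52.OA Cfsg.Agent.Lib.Helper51.OutSpin Cfsg.Agent.Lib.Helper53.OddF
  Cfsg.Agent.Lib.Helper53.MinusF Cfsg.Agent.Lib.Helper54 Cfsg.Agent.Lib.Helper57.MFCOVER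

universe u v

section Plus

variable {F₀ : Type v} [Field F₀] [Fintype F₀] {F : Type u} [Field F] [Fintype F]

theorem pfcover_QPlus_map (e : F₀ →+* F) (m : ℕ) (v : Fin m ⊕ Fin m → F₀) :
    QPlus m F (fun i => e (v i)) = e (QPlus m F₀ v) := by
  rw [QPlus_apply, QPlus_apply]
  simp only [map_sum, map_mul]

theorem pfcover_inr_mem (m : ℕ) (σ : RingAut F) :
    (SemidirectProduct.inr σ : SGL (Fin m ⊕ Fin m) F) ∈ GO ⇑(QPlus m F) := by
  refine ⟨1, fun v => ?_⟩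
  rw [coe_QPlus]
  simp [quadFormPlus]

/-- a rational similarity whose multiplier is a non-square of `F`, of sign one -/
theorem pfcover_exists_gN (h2 : (2 : F) ≠ 0) {m : ℕ} (hm1 : 1 ≤ m) (e : F₀ →+* F)
    (δ₀ : F₀) (hδ : ¬ IsSquare (e δ₀)) (hδ0 : δ₀ ≠ 0) :
    ∃ gN : ↥(Geo.quadSimilarityGroup (F := F₀) ⇑(QPlus m F₀)),
      ¬ IsSquare (simMul (QPlus m F) (hv_plus hm1)
        (simMapG e (QPlus m F₀) (QPlus m F) (pfcover_QPlus_map e m) gN)) ∧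
      simSgn (QPlus m F) (hv_plus hm1) m
        (simMapG e (QPlus m F₀) (QPlus m F) (pfcover_QPlus_map e m) gN) = 1 := by
  have hδ0' : e δ₀ ≠ 0 := fun h => hδ0 (e.injective (by rw [h, map_zero]))
  have hmapeq : simMapG e (QPlus m F₀) (QPlus m F) (pfcover_QPlus_map e m)
      (plusScale m (Units.mk0 δ₀ hδ0)) = plusScale m (Units.mk0 (e δ₀) hδ0') := by
    apply Subtype.ext
    apply Units.ext
    show ((diagonal (Sum.elim (fun _ => ((Units.mk0 δ₀ hδ0 : F₀ˣ) : F₀)) (fun _ => 1)) :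
        Matrix (Fin m ⊕ Fin m) (Fin m ⊕ Fin m) F₀).map e) =
      diagonal (Sum.elim (fun _ => ((Units.mk0 (e δ₀) hδ0' : Fˣ) : F)) (fun _ => 1))
    rw [Matrix.diagonal_map (map_zero e)]
    congr 1
    funext i
    rcases i with i | i <;> simp
  refine ⟨plusScale m (Units.mk0 δ₀ hδ0), ?_, ?_⟩
  · rw [hmapeq, simMul_plusScale hm1]
    rintro ⟨r', hr'⟩
    apply hδ
    refine ⟨(r' : F), ?_⟩
    have h3 := congrArg Units.val hr'
    simpa using h3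
  · rw [hmapeq, simSgn_plusScale hm1]

/-- a rational special isometry outside `Ω` -/
theorem pfcover_exists_rho (h2 : (2 : F) ≠ 0) {m : ℕ} (hm1 : 1 ≤ m) (e : F₀ →+* F)
    (δ₀ : F₀) (hδ : ¬ IsSquare (e δ₀)) (hδ0 : δ₀ ≠ 0) :
    ∃ ρ₀ : ↥(isometryGroup F₀ ⇑(QPlus m F₀)),
      detO (QPlus m F)
        (isoMapG e (QPlus m F₀) (QPlus m F) (pfcover_QPlus_map e m) ρ₀) = 1 ∧
      isoMapG e (QPlus m F₀) (QPlus m F) (pfcover_QPlus_map e m) ρ₀ ∉
        commutator ↥(isometryGroup F ⇑(QPlus m F)) := by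
  have hF : ringChar F ≠ 2 := ringChar_ne_two h2
  obtain ⟨pv, hpv⟩ : ∃ pv : F₀ → F₀ → (Fin m ⊕ Fin m → F₀), ∀ x y,
      pv x y = Sum.elim (Pi.single (⟨0, hm1⟩ : Fin m) x) (Pi.single (⟨0, hm1⟩ : Fin m) y) :=
    ⟨_, fun _ _ => rfl⟩
  have hQpv : ∀ x y, QPlus m F₀ (pv x y) = x * y := by
    intro x y
    rw [QPlus_apply, Finset.sum_eq_single (⟨0, hm1⟩ : Fin m)]
    · simp [hpv]
    · intro i _ hi
      simp [hpv, Pi.single_apply, hi]
    · intro h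
      exact absurd (Finset.mem_univ _) h
  have hQu : QPlus m F₀ (pv 1 1) = 1 := by
    rw [hQpv]; ring
  have hQw : QPlus m F₀ (pv 1 δ₀) = δ₀ := by
    rw [hQpv]; ring
  have hu0 : QPlus m F₀ (pv 1 1) ≠ 0 := by
    rw [hQu]; exact one_ne_zero
  have hw0 : QPlus m F₀ (pv 1 δ₀) ≠ 0 := by
    rw [hQw]; exact hδ0
  have hQu' : QPlus m F (fun i => e (pv 1 1 i)) = 1 := by
    rw [pfcover_QPlus_map, hQu, map_one]
  have hQw' : QPlus m F (fun i => e (pv 1 δ₀ i)) = e δ₀ := by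
    rw [pfcover_QPlus_map, hQw]
  have hu0' : QPlus m F (fun i => e (pv 1 1 i)) ≠ 0 := by
    rw [hQu']; exact one_ne_zero
  have hw0' : QPlus m F (fun i => e (pv 1 δ₀ i)) ≠ 0 := by
    rw [hQw']
    intro h0
    exact hδ0 (e.injective (by rw [h0, map_zero]))
  have hρeq : isoMapG e (QPlus m F₀) (QPlus m F) (pfcover_QPlus_map e m)
      (refl (QPlus m F₀) (pv 1 1) hu0 * refl (QPlus m F₀) (pv 1 δ₀) hw0) =
      refl (QPlus m F) _ hu0' * refl (QPlus m F) _ hw0' := by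
    apply isometry_ext
    rw [isoMapG_coe, coe_mul', coe_refl, coe_refl, coe_mul', coe_refl, coe_refl, Matrix.map_mul,
      reflMat_mapG e _ _ (pfcover_QPlus_map e m), reflMat_mapG e _ _ (pfcover_QPlus_map e m)]
  obtain ⟨hρ1, hρ2⟩ := exists_special_not_commutator (QPlus m F) hF _ _ hu0' hw0'
    (by rw [hQu']; exact ⟨1, by rw [mul_one]⟩) (by rw [hQw']; exact hδ)
  rw [← hρeq] at hρ1 hρ2
  exact ⟨_, hρ1, hρ2⟩

theorem pfcover_plus (h2 : (2 : F) ≠ 0) {m : ℕ} (hm1 : 1 ≤ m) (e : F₀ →+* F)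
    (σ : F ≃+* F) (r : ℕ) (hrodd : Odd r) (hr : orderOf σ = r)
    (he : ∀ x : F, σ x = x ↔ x ∈ Set.range e)
    (g : ↥(Geo.quadSimilarityGroup (F := F) ⇑(QPlus m F)))
    (hg : simSgn (QPlus m F) (hv_plus hm1) m g = 1) :
    ∃ (ω : ↥(isometryGroup F ⇑(QPlus m F)))
      (g₁ : ↥(Geo.quadSimilarityGroup (F := F₀) ⇑(QPlus m F₀)))
      (z : ↥(Geo.quadSimilarityGroup (F := F) ⇑(QPlus m F))),
      ω ∈ commutator ↥(isometryGroup F ⇑(QPlus m F)) ∧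
      (∃ c : F, ((z : GL (Fin m ⊕ Fin m) F) :
        Matrix (Fin m ⊕ Fin m) (Fin m ⊕ Fin m) F) = c • 1) ∧
      g = z * isoSim (QPlus m F) ω *
        simMapG e (QPlus m F₀) (QPlus m F) (pfcover_QPlus_map e m) g₁ := by
  have hF : ringChar F ≠ 2 := ringChar_ne_two h2
  have h2₀ : (2 : F₀) ≠ 0 := two_ne_zero_down e h2
  have hF₀ : ringChar F₀ ≠ 2 := ringChar_ne_two h2₀
  have hσr : σ ^ r = 1 := by
    rw [← hr]
    exact pow_orderOf_eq_one σ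
  obtain ⟨δ₀, hδ₀⟩ := FiniteField.exists_nonsquare hF₀
  have hδ : ¬ IsSquare (e δ₀) := not_isSquare_up e h2 σ r hrodd hσr he δ₀ hδ₀
  have hδ0 : δ₀ ≠ 0 := by
    rintro rfl
    exact hδ₀ ⟨0, by rw [mul_zero]⟩
  obtain ⟨gN, hgN1, hgN2⟩ := pfcover_exists_gN (m := m) h2 hm1 e δ₀ hδ hδ0
  obtain ⟨ρ₀, hρ1, hρ2⟩ := pfcover_exists_rho (m := m) h2 hm1 e δ₀ hδ hδ0
  exact cover_core e _ _ (pfcover_QPlus_map e m) hF polarSep_plus (hv_plus hm1) m
    card_plus gN hgN1 hgN2 ρ₀ hρ1 hρ2 g hg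

set_option maxHeartbeats 1600000 in
/-- the cover statement with the form as a parameter (for the cast) -/
theorem pfcover_gen (h2 : (2 : F) ≠ 0) {m : ℕ} (hm : 4 ≤ m) (e : F₀ →+* F)
    (σ : F ≃+* F) (r : ℕ) (hrodd : Odd r) (hr : orderOf σ = r)
    (he : ∀ x : F, σ x = x ↔ x ∈ Set.range e)
    (Q' : (Fin m ⊕ Fin m → F) → F) (hQ' : ⇑(QPlus m F) = Q')
    (φ : MulAut (Cfsg.POmega F Q')) (hφ : Cfsg.IsFieldAutPOmegaOf Q' σ φ) :
    ∀ h ∈ inndiagOf Q',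
      ∃ k ∈ Cfsg.Inn (Cfsg.POmega F Q'),
      ∃ c ∈ inndiagOf Q' ⊓ Subgroup.centralizer {φ}, h = k * c := by
  subst hQ'
  intro h hh
  have hm1 : 1 ≤ m := by omega
  have hF : ringChar F ≠ 2 := ringChar_ne_two h2
  have hsep : PolarSep (QPlus m F) := polarSep_plus
  have hIn : inndiagOf ⇑(QPlus m F) =
      ((simSgn (QPlus m F) (hv_plus hm1) m).ker).map (simAut ⇑(QPlus m F)) := by
    unfold inndiagOf
    exact inndiagPlus_eq hF hm1
  rw [hIn] at hh ⊢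
  obtain ⟨g, hgker, rfl⟩ := hh
  have hg1 : simSgn (QPlus m F) (hv_plus hm1) m g = 1 := MonoidHom.mem_ker.mp hgker
  obtain ⟨ω, g₁, z, hω, ⟨c, hz⟩, hgeq⟩ := pfcover_plus h2 hm1 e σ r hrodd hr he g hg1
  obtain ⟨gc, hgc⟩ : ∃ gc : ↥(Geo.quadSimilarityGroup (F := F) ⇑(QPlus m F)),
      gc = simMapG e (QPlus m F₀) (QPlus m F) (pfcover_QPlus_map e m) g₁ := ⟨_, rfl⟩
  have hmt : ((gc : GL (Fin m ⊕ Fin m) F) : Matrix (Fin m ⊕ Fin m) (Fin m ⊕ Fin m) F) =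
      ((g₁ : GL (Fin m ⊕ Fin m) F₀) : Matrix (Fin m ⊕ Fin m) (Fin m ⊕ Fin m) F₀).map e := by
    rw [hgc]
    rfl
  rw [← hgc] at hgeq
  have hz1 : simAut ⇑(QPlus m F) z = 1 := simAut_of_scalar (QPlus m F) z c hz
  have hzs : simSgn (QPlus m F) (hv_plus hm1) m z = 1 :=
    simSgn_of_scalar (QPlus m F) _ m card_plus z c hz
  have hgcs : simSgn (QPlus m F) (hv_plus hm1) m gc = 1 := by
    have h1 := hg1
    rw [hgeq, map_mul, map_mul, hzs, one_mul, simSgn_isoSim,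
      detO_of_mem_commutator (QPlus m F) ω hω, one_mul] at h1
    exact h1
  refine ⟨simAut ⇑(QPlus m F) (isoSim (QPlus m F) ω), ?_,
    simAut ⇑(QPlus m F) gc, Subgroup.mem_inf.mpr ⟨?_, ?_⟩, ?_⟩
  · rw [inn_eq]
    exact ⟨isoSim (QPlus m F) ω,
      (mem_omega_sub_iff (QPlus m F) _).mpr ⟨ω, rfl, hω⟩, rfl⟩
  · exact ⟨gc, MonoidHom.mem_ker.mpr hgcs, rfl⟩
  · rw [Subgroup.mem_centralizer_iff]
    intro x hx
    rw [Set.mem_singleton_iff] at hx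
    rw [hx]
    have hσ : (SemidirectProduct.inr (σ : RingAut F) : SGL (Fin m ⊕ Fin m) F) ∈
        GO ⇑(QPlus m F) := pfcover_inr_mem m σ
    have hφeq := (field_iffS (QPlus m F) σ hσ φ).mp hφ
    have hn : 7 ≤ Fintype.card (Fin m ⊕ Fin m) := by
      rw [card_plus]
      omega
    rw [hφeq, ← iotaO_eq_simAut (QPlus m F) gc]
    refine ((comm_iffS (QPlus m F)
      (nondeg_of_polarSep (QPlus m F) hsep) hn σ hσ gc).mpr
        ⟨1, one_ne_zero, ?_⟩).symm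
    rw [one_smul, hmt, Matrix.map_map]
    ext i j
    simp only [Matrix.map_apply, Function.comp_apply]
    exact (he _).2 ⟨_, rfl⟩
  · have h3 : simAut ⇑(QPlus m F) g =
        simAut ⇑(QPlus m F) z *
          simAut ⇑(QPlus m F) (isoSim (QPlus m F) ω) *
            simAut ⇑(QPlus m F) gc := by
      rw [hgeq, map_mul, map_mul]
    rw [h3, hz1, one_mul]

end Plus

-- PIECE COVER (port of `Helper57.MFCOVER.cover_odd`)
theorem cover_odd_plus {F₀ : Type v} [Field F₀] [Fintype F₀] {F : Type u} [Field F] [Fintype F]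
    (h2 : (2 : F) ≠ 0) {m : ℕ} (hm : 4 ≤ m) (e : F₀ →+* F)
    (σ : F ≃+* F) (r : ℕ) (hrodd : Odd r) (hr : orderOf σ = r)
    (he : ∀ x : F, σ x = x ↔ x ∈ Set.range e)
    (φ : MulAut (Cfsg.POmega F (Cfsg.quadFormPlus m F)))
    (hφ : Cfsg.IsFieldAutPOmegaOf (Cfsg.quadFormPlus m F) σ φ) :
    ∀ h ∈ Cfsg.inndiagPOmegaPlus m F,
      ∃ k ∈ Cfsg.Inn (Cfsg.POmega F (Cfsg.quadFormPlus m F)),
      ∃ c ∈ Cfsg.inndiagPOmegaPlus m F ⊓ Subgroup.centralizer {φ}, h = k * c := by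
  have hI : inndiagOf (Cfsg.quadFormPlus m F) = Cfsg.inndiagPOmegaPlus m F := rfl
  have key := pfcover_gen h2 hm e σ r hrodd hr he
    (Cfsg.quadFormPlus m F) (coe_QPlus m F) φ hφ
  rw [hI] at key
  exact key

end Cfsg.Agent.Lib.Helper52.PF
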