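import Mathlib
import Cfsg.Agent.Lib.Helper72.S3Defs

/-!
# Piece LEMX of S4305: two families of subgroups of an abelian coprime `R`
-/

set_option autoImplicit false

universe u

namespace Cfsg.Agent.Lib.Helper19.S3F

open Cfsg.Agent.Lib.Helper72.S3F

theorem lemX : LemXStmt.{u} := by
  intro V _ _ R ι κ B B' hR hcop hB hB' hsup hfix i
  classical
  haveI : Finite (MulAut V) :=
    Finite.of_injective (fun e : MulAut V => (e : V → V)) (fun a b h => DFunLike.coe_injective h)
  haveI : Fintype (B i) := Fintype.ofFinite _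
  let σ : V →* V :=
    { toFun := fun v => ∏ b : B i, (b : MulAut V) v
      map_one' := by simp
      map_mul' := by intro v w; simp [Finset.prod_mul_distrib] }
  have hσdef : ∀ v, σ v = ∏ b : B i, (b : MulAut V) v := fun _ => rfl
  have hσfix : ∀ v, ∀ c ∈ B i, c (σ v) = σ v := by
    intro v c hc
    rw [hσdef, map_prod]
    exact Fintype.prod_equiv (Equiv.mulLeft (⟨c, hc⟩ : B i)) _ _ (fun b => rfl)
  have hσfix' : ∀ j, ∀ v ∈ fix (B' j), ∀ c ∈ B' j, c (σ v) = σ v := by
    intro j v hv c hc
    rw [hσdef, map_prod]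
    refine Finset.prod_congr rfl (fun b _ => ?_)
    have h1 : c * (b : MulAut V) = (b : MulAut V) * c := hR c (hB' j hc) b (hB i b.2)
    have h2 : c ((b : MulAut V) v) = (c * (b : MulAut V)) v := rfl
    rw [h2, h1]
    show (b : MulAut V) (c v) = _
    rw [hv c hc]
  have hker : ∀ v, σ v = 1 := by
    have hle : (⨆ j, fix (B' j)) ≤ σ.ker := by
      refine iSup_le (fun j v hv => ?_)
      rw [MonoidHom.mem_ker]
      have h1 : σ v ∈ fix (B i ⊔ B' j) := by
        intro c hc
        have hst : B i ⊔ B' j ≤ MulAction.stabilizer (MulAut V) (σ v) := by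
          refine sup_le ?_ ?_
          · intro c hc; exact hσfix v c hc
          · intro c hc; exact hσfix' j v hv c hc
        exact hst hc
      rw [hfix i j] at h1
      exact (Subgroup.mem_bot).1 h1
    intro v
    have hv : v ∈ (⨆ j, fix (B' j)) := by rw [hsup]; trivial
    exact (MonoidHom.mem_ker).1 (hle hv)
  rw [eq_bot_iff]
  intro v hv
  rw [Subgroup.mem_bot]
  have h1 : v ^ Nat.card (B i) = 1 := by
    have h0 : σ v = v ^ Nat.card (B i) := by
      rw [hσdef, Finset.prod_congr rfl (fun (b : B i) _ => hv (b : MulAut V) b.2)]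
      simp [Nat.card_eq_fintype_card]
    rw [← h0]; exact hker v
  have h2 : v ^ Nat.card V = 1 := pow_card_eq_one'
  have h3 : (Nat.card (B i)).Coprime (Nat.card V) :=
    Nat.Coprime.coprime_dvd_left (Subgroup.card_dvd_of_le (hB i)) hcop
  have h4 : v ^ Nat.gcd (Nat.card (B i)) (Nat.card V) = 1 := pow_gcd_eq_one.2 ⟨h1, h2⟩
  rw [Nat.Coprime.gcd_eq_one h3, pow_one] at h4
  exact h4

end Cfsg.Agent.Lib.Helper19.S3F
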