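import Mathlib
import Cfsg.Prelude.Def_Blocks
import Cfsg.Prelude.Def_Local
import Cfsg.Agent.S0947
import Cfsg.Agent.S0145
import Cfsg.Agent.Lib.Helper4.CharSimple
import Cfsg.Agent.Lib.Helper82.CharCore

/-!
# S4501, piece C3b (helper19 for helper30): the values at `x` of the principal `3`-block
`{1, ζ, ζ'}` and vanishing at `x` of the other irreducible characters
-/

set_option autoImplicit false
set_option linter.style.haveILetI false
open Cfsg
open scoped ComplexConjugate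

namespace Cfsg.Agent.Lib.Helper30.S4501.C3b

/-- C3b -/
theorem three_block_values {G : Type*} [Group G] [Finite G] (M : Ideal Cfsg.AlgInt)
    (hM : Cfsg.IsPModular 3 M) (x : G) (hx3 : orderOf x = 3)
    (hCx : Nat.card (Subgroup.centralizer ({x} : Set G)) = 3) (ζ ζ' : Cfsg.IrrCharacter G)
    (h1 : (ζ : G → ℂ) ≠ (fun _ => 1)) (h2 : (ζ' : G → ℂ) ≠ (fun _ => 1)) (h3 : ζ ≠ ζ')
    (hB : Cfsg.principalBlock M G = {χ : Cfsg.IrrCharacter G |
        (χ : G → ℂ) = (fun _ => 1) ∨ χ = ζ ∨ χ = ζ'})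
    (hdeg : Cfsg.charDegree (ζ' : G → ℂ) = Cfsg.charDegree (ζ : G → ℂ) + 1)
    (hor : (ζ : G → ℂ) x = 1 ∨ (ζ' : G → ℂ) x = -1) :
    (ζ : G → ℂ) x = 1 ∧ (ζ' : G → ℂ) x = -1 ∧
      ∀ χ : Cfsg.IrrCharacter G, (χ : G → ℂ) x ≠ 0 →
        ((χ : G → ℂ) = (fun _ => 1) ∨ χ = ζ ∨ χ = ζ') := by
  classical
  letI := Fintype.ofFinite G
  haveI := Cfsg.Agent.Lib.Helper4.irr_finite (G := G)
  letI : Fintype (IrrCharacter G) := Fintype.ofFinite _
  haveI : Fact (Nat.Prime 3) := ⟨Nat.prime_three⟩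
  have hx1 : x ≠ 1 := by
    intro h
    rw [h, orderOf_one] at hx3
    norm_num at hx3
  -- (1) the sum over the principal block of `|χ x|²` is `3`
  have hsumB : ∑ᶠ χ ∈ Cfsg.principalBlock M G, ‖(χ : G → ℂ) x‖ ^ 2 = (3 : ℝ) := by
    have hidx : ∃ k : ℕ, (Cfsg.pPrimeCore 3 (Subgroup.centralizer ({x} : Set G))).index = 3 ^ k := by
      have hdvd : (Cfsg.pPrimeCore 3 (Subgroup.centralizer ({x} : Set G))).index ∣ 3 := by
        rw [← hCx]
        exact Subgroup.index_dvd_card _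
      rcases (Nat.dvd_prime Nat.prime_three).1 hdvd with h | h
      · exact ⟨0, by rw [h]; norm_num⟩
      · exact ⟨1, by rw [h]; norm_num⟩
    have h := (Cfsg.Agent.S0947.result 3 M hM x ⟨1, by rw [hx3]; norm_num⟩ hx1 1
      (by rw [orderOf_one]; norm_num)).2 hidx
    rw [hCx] at h
    simp only [OneMemClass.coe_one, mul_one] at h
    rw [h]
    have h31 : (3 : ℕ).factorization 3 = 1 := Nat.Prime.factorization_self Nat.prime_three
    rw [h31]
    norm_num
  -- (2) the sum over all irreducible characters of `|χ x|²` is `3`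
  have hsumAll : ∑ χ : IrrCharacter G, ‖(χ : G → ℂ) x‖ ^ 2 = (3 : ℝ) := by
    have h := (Cfsg.Agent.S0145.result x x).1 (IsConj.refl x)
    rw [finsum_eq_sum_of_fintype, hCx] at h
    have h' : ∀ χ : IrrCharacter G, (χ : G → ℂ) x * conj ((χ : G → ℂ) x) =
        ((‖(χ : G → ℂ) x‖ ^ 2 : ℝ) : ℂ) := by
      intro χ
      rw [Complex.mul_conj, Complex.normSq_eq_norm_sq]
    simp only [h'] at h
    exact_mod_cast h
  -- vanishing outside the principal block
  have hvan : ∀ χ : IrrCharacter G, χ ∉ Cfsg.principalBlock M G → (χ : G → ℂ) x = 0 := by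
    intro χ hχ
    rw [finsum_mem_def, finsum_eq_sum_of_fintype] at hsumB
    have hle : ∀ χ ∈ (Finset.univ : Finset (IrrCharacter G)),
        Set.indicator (Cfsg.principalBlock M G)
          (fun χ : IrrCharacter G => ‖(χ : G → ℂ) x‖ ^ 2) χ ≤ ‖(χ : G → ℂ) x‖ ^ 2 := by
      intro χ _
      rw [Set.indicator_apply]
      split_ifs
      · exact le_rfl
      · positivity
    have heq := (Finset.sum_eq_sum_iff_of_le hle).1 (hsumB.trans hsumAll.symm) χ
      (Finset.mem_univ χ)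
    rw [Set.indicator_apply, if_neg hχ] at heq
    have h0 : ‖(χ : G → ℂ) x‖ = 0 := (pow_eq_zero_iff two_ne_zero).1 heq.symm
    exact norm_eq_zero.1 h0
  have hthird : ∀ χ : Cfsg.IrrCharacter G, (χ : G → ℂ) x ≠ 0 →
      ((χ : G → ℂ) = (fun _ => 1) ∨ χ = ζ ∨ χ = ζ') := by
    intro χ hχ
    by_contra hcon
    refine hχ (hvan χ ?_)
    rw [hB]
    exact hcon
  -- (3) orthogonality of the columns `1` and `x`
  have hcol : (1 : ℂ) + (ζ : G → ℂ) 1 * conj ((ζ : G → ℂ) x) +
      (ζ' : G → ℂ) 1 * conj ((ζ' : G → ℂ) x) = 0 := by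
    have hnc : ¬ IsConj (1 : G) x := by
      intro hc
      exact hx1 (isConj_one_right.1 hc)
    have h := (Cfsg.Agent.S0145.result (1 : G) x).2 hnc
    rw [finsum_eq_sum_of_fintype] at h
    have ht : (Cfsg.Agent.Lib.Helper4.trivIrr : IrrCharacter G) ≠ ζ :=
      fun e => h1 (by rw [← e]; rfl)
    have ht' : (Cfsg.Agent.Lib.Helper4.trivIrr : IrrCharacter G) ≠ ζ' :=
      fun e => h2 (by rw [← e]; rfl)
    have hsub : ∑ χ ∈ ({Cfsg.Agent.Lib.Helper4.trivIrr, ζ, ζ'} : Finset (IrrCharacter G)),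
        (χ : G → ℂ) 1 * conj ((χ : G → ℂ) x) =
        ∑ χ : IrrCharacter G, (χ : G → ℂ) 1 * conj ((χ : G → ℂ) x) := by
      apply Finset.sum_subset (Finset.subset_univ _)
      intro χ _ hχ
      have h0 : (χ : G → ℂ) x = 0 := by
        by_contra hne
        rcases hthird χ hne with h | h | h
        · exact hχ (by
            rw [show χ = Cfsg.Agent.Lib.Helper4.trivIrr from Subtype.ext h]
            simp)
        · exact hχ (by rw [h]; simp)
        · exact hχ (by rw [h]; simp)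
      rw [h0, map_zero, mul_zero]
    rw [← hsub, Finset.sum_insert (by simp [ht, ht']), Finset.sum_insert (by simp [h3]),
      Finset.sum_singleton] at h
    have e1 : ((Cfsg.Agent.Lib.Helper4.trivIrr : IrrCharacter G) : G → ℂ) 1 *
        conj (((Cfsg.Agent.Lib.Helper4.trivIrr : IrrCharacter G) : G → ℂ) x) = 1 := by
      rw [Cfsg.Agent.Lib.Helper4.trivIrr_apply, Cfsg.Agent.Lib.Helper4.trivIrr_apply, map_one,
        mul_one]
    rw [e1] at h
    rw [← h]
    ring
  have hd := Cfsg.Agent.Lib.Helper82.irr_charDegree ζ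
  have hd' := Cfsg.Agent.Lib.Helper82.irr_charDegree ζ'
  rw [← hd.1, ← hd'.1, hdeg] at hcol
  have hdne : ((Cfsg.charDegree (ζ : G → ℂ) : ℕ) : ℂ) ≠ 0 := by exact_mod_cast hd.2
  have hdne' : ((Cfsg.charDegree (ζ : G → ℂ) + 1 : ℕ) : ℂ) ≠ 0 := by
    have hs : Cfsg.charDegree (ζ : G → ℂ) + 1 ≠ 0 := Nat.succ_ne_zero _
    exact_mod_cast hs
  have hboth : (ζ : G → ℂ) x = 1 ∧ (ζ' : G → ℂ) x = -1 := by
    rcases hor with h | h
    · refine ⟨h, ?_⟩
      rw [h, map_one, mul_one] at hcol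
      have h5 : ((Cfsg.charDegree (ζ : G → ℂ) + 1 : ℕ) : ℂ) * (1 + conj ((ζ' : G → ℂ) x)) = 0 := by
        rw [← hcol]
        push_cast
        ring
      rcases mul_eq_zero.1 h5 with h6 | h6
      · exact absurd h6 hdne'
      · have h7 : conj ((ζ' : G → ℂ) x) = -1 := by linear_combination h6
        have h8 := congrArg conj h7
        rw [Complex.conj_conj, map_neg, map_one] at h8
        exact h8
    · refine ⟨?_, h⟩
      rw [h, map_neg, map_one] at hcol
      have h5 : ((Cfsg.charDegree (ζ : G → ℂ) : ℕ) : ℂ) * (conj ((ζ : G → ℂ) x) - 1) = 0 := by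
        rw [← hcol]
        push_cast
        ring
      rcases mul_eq_zero.1 h5 with h6 | h6
      · exact absurd h6 hdne
      · have h7 : conj ((ζ : G → ℂ) x) = 1 := by linear_combination h6
        have h8 := congrArg conj h7
        rw [Complex.conj_conj, map_one] at h8
        exact h8
  exact ⟨hboth.1, hboth.2, hthird⟩

end Cfsg.Agent.Lib.Helper30.S4501.C3b
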