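import Mathlib
import Cfsg.Prelude.Def_GeometricClasses
import Cfsg.Prelude.Def_LieClassical

/-!
# Project SPP (helper71), piece QTI

In characteristic 2 the isometries of a symplectic form `f` stabilising a pair of complementary
totally singular subspaces fix the quadratic form `v ↦ f (π₀ v) (π₁ v)`, whose polar form is `f`.
-/

set_option autoImplicit false

namespace Cfsg.Agent.Lib.Helper19.SPPQTI

open Matrix Cfsg.Geo

variable {n : ℕ} {F : Type*} [Field F] [Fintype F]

/-- QTI: in characteristic 2 the isometries stabilising a pair of complementary totally singular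
subspaces fix a quadratic form with polar form `f`. -/
theorem QTI (hq : ¬ Odd (Fintype.card F)) (f : (Fin n → F) → (Fin n → F) → F)
    (hf : IsSymplecticForm f) (H : Subgroup (GL (Fin n) F)) (hfix : FixesForm (matrixSet H) f)
    {m : ℕ} (D : Fin 2 → Submodule F (Fin n → F)) (hD : IsMDecomposition m D)
    (hts : ∀ i, IsTotallySingularFor f (D i)) (hHD : H ≤ decompositionStabilizer D) :
    ∃ Q : (Fin n → F) → F, IsNondegenerateQuadraticForm Q ∧
      (∀ u v : Fin n → F, QuadraticMap.polar Q u v = f u v) ∧ H ≤ quadSimilarityGroup Q := by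
  classical
  -- characteristic 2
  have hchar : ringChar F = 2 := by
    apply FiniteField.even_card_iff_char_two.2
    rcases Nat.even_or_odd (Fintype.card F) with h | h
    · exact Nat.even_iff.1 h
    · exact absurd h hq
  haveI : CharP F 2 := ringChar.of_eq hchar
  have hneg : ∀ x : F, -x = x := fun x => CharTwo.neg_eq x
  -- the two members are complementary
  have hc : IsCompl (D 0) (D 1) := by
    constructor
    · exact hD.indep.pairwiseDisjoint (by decide : (0 : Fin 2) ≠ 1)
    · rw [codisjoint_iff, eq_top_iff, ← hD.iSup_eq_top]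
      apply iSup_le
      intro i
      fin_cases i
      · exact le_sup_left
      · exact le_sup_right
  obtain ⟨P₀, hP₀⟩ : ∃ P : (Fin n → F) →ₗ[F] (Fin n → F), P = (D 0).projection (D 1) hc :=
    ⟨_, rfl⟩
  obtain ⟨P₁, hP₁⟩ : ∃ P : (Fin n → F) →ₗ[F] (Fin n → F),
      P = (D 1).projection (D 0) hc.symm := ⟨_, rfl⟩
  have hm0 : ∀ v, P₀ v ∈ D 0 := fun v => by
    rw [hP₀]
    exact Submodule.projection_apply_mem hc v
  have hm1 : ∀ v, P₁ v ∈ D 1 := fun v => by
    rw [hP₁]
    exact Submodule.projection_apply_mem hc.symm v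
  have hsum : ∀ v, P₀ v + P₁ v = v := fun v => by
    rw [hP₀, hP₁]
    exact Submodule.projection_add_projection_eq_self hc v
  have huniq : ∀ a b : Fin n → F, a ∈ D 0 → b ∈ D 1 → P₀ (a + b) = a ∧ P₁ (a + b) = b := by
    intro a b ha hb
    constructor
    · rw [map_add, hP₀, Submodule.projection_apply_of_mem_left hc ha,
        (Submodule.projection_apply_eq_zero_iff hc).2 hb, add_zero]
    · rw [map_add, hP₁, (Submodule.projection_apply_eq_zero_iff hc.symm).2 ha,
        Submodule.projection_apply_of_mem_left hc.symm hb, zero_add]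
  have hb := hf.bilinear
  have hexp : ∀ u v : Fin n → F, f u v = f (P₀ u) (P₁ v) + f (P₁ u) (P₀ v) := by
    intro u v
    have h1 : f u v = f (P₀ u + P₁ u) (P₀ v + P₁ v) := by rw [hsum u, hsum v]
    rw [h1, hb.add_left, hb.add_right, hb.add_right, hts 0 _ (hm0 u) _ (hm0 v),
      hts 1 _ (hm1 u) _ (hm1 v)]
    ring
  obtain ⟨Q, hQdef⟩ : ∃ Q : (Fin n → F) → F, Q = fun v => f (P₀ v) (P₁ v) := ⟨_, rfl⟩
  have hQ : ∀ v, Q v = f (P₀ v) (P₁ v) := fun v => by rw [hQdef]
  have hpol : ∀ u v : Fin n → F, QuadraticMap.polar Q u v = f u v := by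
    intro u v
    rw [hexp u v, hf.skew (P₁ u) (P₀ v), hneg]
    unfold QuadraticMap.polar
    rw [hQ (u + v), hQ u, hQ v, map_add, map_add, hb.add_left, hb.add_right, hb.add_right]
    ring
  have hpolf : QuadraticMap.polar Q = f := funext fun u => funext fun v => hpol u v
  refine ⟨Q, ⟨?_, ?_, ?_⟩, hpol, ?_⟩
  · intro c v
    rw [hQ, hQ, map_smul, map_smul, hb.smul_left, hb.smul_right]
    ring
  · rw [hpolf]
    exact hb
  · rw [hpolf]
    exact hf.nondegenerate
  · intro h hh
    obtain ⟨σ, hσ⟩ := hHD hh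
    refine ⟨1, fun v => ?_⟩
    rw [Units.val_one, one_mul]
    have hmap : ∀ i, ∀ a ∈ D i, (h : Matrix (Fin n) (Fin n) F) *ᵥ a ∈ D (σ i) := by
      intro i a ha
      have h1 : Matrix.toLin' (h : Matrix (Fin n) (Fin n) F) a ∈
          (D i).map (Matrix.toLin' (h : Matrix (Fin n) (Fin n) F)) := Submodule.mem_map_of_mem ha
      rw [hσ i, Matrix.toLin'_apply] at h1
      exact h1
    have hhv : (h : Matrix (Fin n) (Fin n) F) *ᵥ v =
        (h : Matrix (Fin n) (Fin n) F) *ᵥ P₀ v + (h : Matrix (Fin n) (Fin n) F) *ᵥ P₁ v := by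
      rw [← Matrix.mulVec_add, hsum]
    have hhv' : (h : Matrix (Fin n) (Fin n) F) *ᵥ v =
        (h : Matrix (Fin n) (Fin n) F) *ᵥ P₁ v + (h : Matrix (Fin n) (Fin n) F) *ᵥ P₀ v := by
      rw [hhv, add_comm]
    have hinv := hfix (h : Matrix (Fin n) (Fin n) F) ⟨h, hh, rfl⟩
    have h01 : ∀ j : Fin 2, j = 0 ∨ j = 1 := by decide
    rw [hQ, hQ]
    rcases h01 (σ 0) with h0 | h0
    · have h1 : σ 1 = 1 := by
        rcases h01 (σ 1) with h1 | h1
        · exact absurd (σ.injective (h0.trans h1.symm)) (by decide)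
        · exact h1
      have ha := hmap 0 _ (hm0 v)
      rw [h0] at ha
      have hb' := hmap 1 _ (hm1 v)
      rw [h1] at hb'
      obtain ⟨e0, e1⟩ := huniq _ _ ha hb'
      rw [hhv, e0, e1]
      exact hinv _ _
    · have h1 : σ 1 = 0 := by
        rcases h01 (σ 1) with h1 | h1
        · exact h1
        · exact absurd (σ.injective (h0.trans h1.symm)) (by decide)
      have ha := hmap 0 _ (hm0 v)
      rw [h0] at ha
      have hb' := hmap 1 _ (hm1 v)
      rw [h1] at hb'
      obtain ⟨e0, e1⟩ := huniq _ _ hb' ha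
      rw [hhv', e0, e1, hinv, hf.skew, hneg]

end Cfsg.Agent.Lib.Helper19.SPPQTI
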