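import Mathlib
import Cfsg.Prelude.Def_GeometricClasses
import Cfsg.Prelude.Def_LieClassical
import Cfsg.Agent.Lib.Helper7.GUOrder
import Cfsg.Agent.Lib.Helper73.SLPC2
import Cfsg.Agent.Lib.Helper91.SUQF4PL

/-!
# Project SUQ (helper50), piece Q2 (helper19)

For `q = 2` the stabiliser in `GU` of a non-degenerate decomposition into planes stabilises a
non-degenerate decomposition into lines (the two non-isotropic points of each plane).
-/

set_option autoImplicit false

namespace Cfsg.Agent.Lib.Helper19.SUQQ2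

open Matrix Cfsg.Geo
open Cfsg.Agent.Lib.Helper7 (hf_add_left hf_smul_left hf_zero_left hf_sum_left hf_add_right
  hf_smul_right hf_zero_right hf_conj hf_eq_zero_symm)

variable {n : ℕ} {F : Type*} [Field F] [Fintype F] {q : ℕ}

/-- the per-plane input: two orthogonal non-isotropic vectors carrying all non-isotropic points -/
def PlaneProp (n : ℕ) (F : Type*) [Field F] (q : ℕ) : Prop :=
  ∀ W : Submodule F (Fin n → F), IsNondegenerateOn (Cfsg.hermForm n F q) W →
    Module.finrank F W = 2 →
    ∃ v₁ v₂ : Fin n → F, v₁ ∈ W ∧ v₂ ∈ W ∧ Cfsg.hermForm n F q v₁ v₁ ≠ 0 ∧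
      Cfsg.hermForm n F q v₂ v₂ ≠ 0 ∧ Cfsg.hermForm n F q v₁ v₂ = 0 ∧
      ∀ w ∈ W, Cfsg.hermForm n F q w w ≠ 0 → (∃ c : F, w = c • v₁) ∨ (∃ c : F, w = c • v₂)

omit [Fintype F] in
theorem toLin_inj (g : GL (Fin n) F) :
    Function.Injective (Matrix.toLin' (g : Matrix (Fin n) (Fin n) F)) := by
  intro x y hxy
  have h1 := congrArg (fun z => ((g⁻¹ : GL (Fin n) F) : Matrix (Fin n) (Fin n) F) *ᵥ z) hxy
  simp only [Matrix.toLin'_apply, Matrix.mulVec_mulVec, ← Units.val_mul, inv_mul_cancel,
    Units.val_one, Matrix.one_mulVec] at h1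
  exact h1

theorem fin2 (a : Fin 2) : a = 0 ∨ a = 1 := by
  revert a
  decide

theorem core (hF : Fintype.card F = q ^ 2) (hP : PlaneProp n F q) (H : Subgroup (GL (Fin n) F))
    (hH : H ≤ Cfsg.GU n F q) {s : ℕ} (D : Fin s → Submodule F (Fin n → F))
    (hD : IsNondegenerateMDecomposition (Cfsg.hermForm n F q) 2 D)
    (hHD : H ≤ decompositionStabilizer D) :
    ∃ D' : Fin n → Submodule F (Fin n → F),
      IsNondegenerateMDecomposition (Cfsg.hermForm n F q) 1 D' ∧
      H ≤ decompositionStabilizer D' := by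
  classical
  choose v₁ v₂ hv₁W hv₂W hv₁ hv₂ hv₁₂ hall using
    fun i => hP (D i) (hD.nondegenerate i) (hD.decomp.finrank_eq i)
  set vec : Fin s × Fin 2 → (Fin n → F) := fun p => if p.2 = 0 then v₁ p.1 else v₂ p.1 with hvec
  have vec0 : ∀ i, vec (i, 0) = v₁ i := fun i => by simp [hvec]
  have vec1 : ∀ i, vec (i, 1) = v₂ i := fun i => by simp [hvec]
  have hmem : ∀ i a, vec (i, a) ∈ D i := by
    intro i a
    rcases fin2 a with rfl | rfl
    · rw [vec0]; exact hv₁W i
    · rw [vec1]; exact hv₂W i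
  have hniso : ∀ i a, Cfsg.hermForm n F q (vec (i, a)) (vec (i, a)) ≠ 0 := by
    intro i a
    rcases fin2 a with rfl | rfl
    · rw [vec0]; exact hv₁ i
    · rw [vec1]; exact hv₂ i
  have horth : ∀ p p', p ≠ p' → Cfsg.hermForm n F q (vec p) (vec p') = 0 := by
    rintro ⟨i, a⟩ ⟨j, b⟩ hne
    by_cases hij : i = j
    · subst hij
      have hab : a ≠ b := fun h => hne (by rw [h])
      rcases fin2 a with rfl | rfl <;> rcases fin2 b with rfl | rfl
      · exact absurd rfl hab
      · rw [vec0, vec1]; exact hv₁₂ i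
      · rw [vec0, vec1]; exact hf_eq_zero_symm hF n _ _ (hv₁₂ i)
      · exact absurd rfl hab
    · exact hD.orthogonal i j hij _ (hmem i a) _ (hmem j b)
  have hline : ∀ i, ∀ w ∈ D i, Cfsg.hermForm n F q w w ≠ 0 →
      ∃ a : Fin 2, ∃ c : F, w = c • vec (i, a) := by
    intro i w hw hne
    rcases hall i w hw hne with ⟨c, hc⟩ | ⟨c, hc⟩
    · exact ⟨0, c, by rw [vec0]; exact hc⟩
    · exact ⟨1, c, by rw [vec1]; exact hc⟩
  have hsn : s * 2 = n := Cfsg.Agent.Lib.Helper73.SLPC2.C2 D hD.decomp
  have hs2 := hD.decomp.two_le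
  obtain ⟨e⟩ : Nonempty (Fin n ≃ Fin s × Fin 2) :=
    ⟨(finCongr hsn.symm).trans finProdFinEquiv.symm⟩
  set u : Fin n → (Fin n → F) := fun k => vec (e k) with hu
  have huorth : ∀ k l, k ≠ l → Cfsg.hermForm n F q (u k) (u l) = 0 :=
    fun k l hkl => horth _ _ (fun h => hkl (e.injective h))
  have huniso : ∀ k, Cfsg.hermForm n F q (u k) (u k) ≠ 0 := fun k => hniso (e k).1 (e k).2
  have hu0 : ∀ k, u k ≠ 0 := by
    intro k h0
    apply huniso k
    rw [h0, hf_zero_left]
  have hli : LinearIndependent F u := by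
    rw [Fintype.linearIndependent_iff]
    intro c hc j
    have h1 : Cfsg.hermForm n F q (∑ i, c i • u i) (u j) = 0 := by rw [hc, hf_zero_left]
    rw [hf_sum_left, Finset.sum_eq_single j] at h1
    · rw [hf_smul_left] at h1
      exact (mul_eq_zero.mp h1).resolve_right (huniso j)
    · intro i _ hij
      rw [hf_smul_left, huorth i j hij, mul_zero]
    · intro hj
      exact absurd (Finset.mem_univ j) hj
  have hspan : Submodule.span F (Set.range u) = ⊤ := by
    apply hli.span_eq_top_of_card_eq_finrank'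
    rw [Fintype.card_fin, Module.finrank_fin_fun]
  refine ⟨fun k => Submodule.span F {u k}, ⟨⟨by omega, Nat.one_pos,
    fun k => finrank_span_singleton (hu0 k), hli.iSupIndep_span_singleton, ?_⟩, ?_, ?_⟩, ?_⟩
  · rw [← Submodule.span_range_eq_iSup]
    exact hspan
  · intro k w hw hw0
    obtain ⟨a, rfl⟩ := Submodule.mem_span_singleton.mp hw
    have ha : a ≠ 0 := by
      rintro rfl
      exact hw0 (zero_smul _ _)
    refine ⟨⟨u k, Submodule.mem_span_singleton_self _, ?_⟩,
      ⟨u k, Submodule.mem_span_singleton_self _, ?_⟩⟩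
    · rw [hf_smul_right]
      exact mul_ne_zero (pow_ne_zero _ ha) (huniso k)
    · rw [hf_smul_left]
      exact mul_ne_zero ha (huniso k)
  · intro k l hkl x hx y hy
    obtain ⟨a, rfl⟩ := Submodule.mem_span_singleton.mp hx
    obtain ⟨b, rfl⟩ := Submodule.mem_span_singleton.mp hy
    rw [hf_smul_left, hf_smul_right, huorth k l hkl, mul_zero, mul_zero]
  · intro g hg
    obtain ⟨σ, hσ⟩ := hHD hg
    have hgU : ∀ x y, Cfsg.hermForm n F q ((g : Matrix (Fin n) (Fin n) F) *ᵥ x)
        ((g : Matrix (Fin n) (Fin n) F) *ᵥ y) = Cfsg.hermForm n F q x y := fun x y => hH hg x y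
    have hstep : ∀ k, ∃ l, (Submodule.span F {u k}).map
        (Matrix.toLin' (g : Matrix (Fin n) (Fin n) F)) = Submodule.span F {u l} := by
      intro k
      have h1 : (g : Matrix (Fin n) (Fin n) F) *ᵥ u k ∈ D (σ (e k).1) := by
        rw [← hσ]
        exact ⟨u k, hmem _ _, Matrix.toLin'_apply _ _⟩
      have h2 : Cfsg.hermForm n F q ((g : Matrix (Fin n) (Fin n) F) *ᵥ u k)
          ((g : Matrix (Fin n) (Fin n) F) *ᵥ u k) ≠ 0 := by
        rw [hgU]
        exact huniso k
      obtain ⟨b, c, hc⟩ := hline _ _ h1 h2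
      have hc0 : c ≠ 0 := by
        rintro rfl
        rw [zero_smul] at hc
        rw [hc, hf_zero_left] at h2
        exact h2 rfl
      refine ⟨e.symm (σ (e k).1, b), ?_⟩
      rw [Submodule.map_span, Set.image_singleton, Matrix.toLin'_apply, hc]
      show Submodule.span F {c • vec (σ (e k).1, b)} =
        Submodule.span F {vec (e (e.symm (σ (e k).1, b)))}
      rw [Equiv.apply_symm_apply]
      exact Submodule.span_singleton_smul_eq (IsUnit.mk0 c hc0) _
    choose φ hφ using hstep
    have hD'inj : ∀ k l, Submodule.span F {u k} = Submodule.span F {u l} → k = l := by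
      intro k l hkl
      by_contra hne
      have h1 : u k ∈ Submodule.span F {u l} := by
        rw [← hkl]
        exact Submodule.mem_span_singleton_self _
      obtain ⟨a, ha⟩ := Submodule.mem_span_singleton.mp h1
      have h2 : Cfsg.hermForm n F q (a • u l) (u k) = 0 := by
        rw [hf_smul_left, huorth l k (Ne.symm hne), mul_zero]
      rw [ha] at h2
      exact huniso k h2
    have hφinj : Function.Injective φ := by
      intro k l hkl
      apply hD'inj
      apply Submodule.map_injective_of_injective (toLin_inj g)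
      rw [hφ k, hφ l, hkl]
    exact ⟨Equiv.ofBijective φ ⟨hφinj, Finite.injective_iff_surjective.mp hφinj⟩,
      fun k => hφ k⟩

/-- Q2: for `q = 2` the stabiliser in `GU` of a non-degenerate decomposition into planes
stabilises a non-degenerate decomposition into lines. -/
theorem Q2 (hF : Fintype.card F = q ^ 2) (hq : q = 2) (H : Subgroup (GL (Fin n) F))
    (hH : H ≤ Cfsg.GU n F q) {s : ℕ} (D : Fin s → Submodule F (Fin n → F))
    (hD : IsNondegenerateMDecomposition (Cfsg.hermForm n F q) 2 D)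
    (hHD : H ≤ decompositionStabilizer D) :
    ∃ D' : Fin n → Submodule F (Fin n → F),
      IsNondegenerateMDecomposition (Cfsg.hermForm n F q) 1 D' ∧
      H ≤ decompositionStabilizer D' := by
  exact core hF (fun W hW hdim => Cfsg.Agent.Lib.Helper91.SUQF4PL.F4PL hF hq W hW hdim) H hH D hD hHD

end Cfsg.Agent.Lib.Helper19.SUQQ2
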