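import Mathlib
import Cfsg.Agent.Lib.Helper48.SVA

/-!
# S2425 (helper48), piece FIXABS: fixed points on cosets through an injective coset invariant
-/

set_option autoImplicit false

namespace Cfsg.Agent.Lib.Helper48.SV

open Cfsg
open scoped MatrixGroups Polynomial

/-- piece FIXABS: fixed points on cosets through an injective "coset invariant" `Ψ` -/
theorem card_fixedBy_of_invariant {G : Type*} [Group G] (H : Subgroup G) {X : Type*} (Ψ : G → X)
    (hΨ : ∀ a b : G, Ψ a = Ψ b ↔ a⁻¹ * b ∈ H) (x : G) (σ : X → X)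
    (hσ : ∀ a : G, Ψ (x * a) = σ (Ψ a)) :
    Nat.card (MulAction.fixedBy (G ⧸ H) x) = Nat.card {y : X // y ∈ Set.range Ψ ∧ σ y = y} := by
  classical
  let Ψ' : G ⧸ H → X :=
    Quotient.lift Ψ (fun a b hab => (hΨ a b).mpr (QuotientGroup.leftRel_apply.mp hab))
  have hΨ'mk : ∀ a : G, Ψ' (a : G ⧸ H) = Ψ a := fun a => rfl
  have hinj : Function.Injective Ψ' := by
    intro c d hcd
    induction c using QuotientGroup.induction_on with
    | H a =>
      induction d using QuotientGroup.induction_on with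
      | H b =>
        rw [hΨ'mk, hΨ'mk] at hcd
        exact QuotientGroup.eq.mpr ((hΨ a b).mp hcd)
  have hsmul : ∀ c : G ⧸ H, Ψ' (x • c) = σ (Ψ' c) := by
    intro c
    induction c using QuotientGroup.induction_on with
    | H a =>
      rw [hΨ'mk]
      exact hσ a
  have hrange : ∀ c : G ⧸ H, Ψ' c ∈ Set.range Ψ := by
    intro c
    induction c using QuotientGroup.induction_on with
    | H a => exact ⟨a, rfl⟩
  let f : MulAction.fixedBy (G ⧸ H) x → {y : X // y ∈ Set.range Ψ ∧ σ y = y} := fun c =>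
    ⟨Ψ' c.1, hrange c.1, by
      have hc : x • c.1 = c.1 := c.2
      rw [← hsmul, hc]⟩
  have hf : Function.Bijective f := by
    constructor
    · intro c d hcd
      apply Subtype.ext
      apply hinj
      exact congrArg Subtype.val hcd
    · rintro ⟨y, ⟨a, rfl⟩, hy⟩
      refine ⟨⟨(a : G ⧸ H), ?_⟩, rfl⟩
      show x • (a : G ⧸ H) = (a : G ⧸ H)
      apply hinj
      rw [hsmul, hΨ'mk]
      exact hy
  exact Nat.card_congr (Equiv.ofBijective f hf)

end Cfsg.Agent.Lib.Helper48.SV
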