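import Mathlib

/-!
# S5980 (helper98), piece TD2-COMB: `comb_min`
-/

set_option autoImplicit false

namespace Cfsg.Agent.Lib.Helper98.TD2

open Matrix Polynomial
open scoped Kronecker

universe u

/-- two different pairs with the same product value have product value `1` -/
theorem td2comb_key {L : Type*} [Field L] {a b : ℕ}
    (dA : Fin a → L) (dB : Fin b → L)
    (h1 : ∀ θ : L, θ ≠ 1 → Nat.card {p : Fin a × Fin b // dA p.1 * dB p.2 = θ} ≤ 1)
    (p p' : Fin a × Fin b) (hne : p ≠ p') (heq : dA p.1 * dB p.2 = dA p'.1 * dB p'.2) :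
    dA p.1 * dB p.2 = 1 := by
  by_contra hθ
  have hc := h1 _ hθ
  rw [Finite.card_le_one_iff_subsingleton] at hc
  have h := hc.elim ⟨p, rfl⟩ ⟨p', heq.symm⟩
  exact hne (congrArg Subtype.val h)

/-- if `dA` is not injective then all products are `1` -/
theorem td2comb_all_one {L : Type*} [Field L] {a b : ℕ} (hb : 2 ≤ b)
    (dA : Fin a → L) (dB : Fin b → L)
    (h1 : ∀ θ : L, θ ≠ 1 → Nat.card {p : Fin a × Fin b // dA p.1 * dB p.2 = θ} ≤ 1)
    (k k' : Fin a) (hkk : k ≠ k') (hd : dA k = dA k') :
    ∀ p : Fin a × Fin b, dA p.1 * dB p.2 = 1 := by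
  have hall : ∀ l : Fin b, dA k * dB l = 1 := by
    intro l
    refine td2comb_key dA dB h1 (k, l) (k', l) ?_ ?_
    · intro h
      exact hkk (congrArg Prod.fst h)
    · show dA k * dB l = dA k' * dB l
      rw [hd]
  have hconst : ∀ l l' : Fin b, dB l = dB l' := by
    intro l l'
    have e1 := hall l
    have e2 := hall l'
    have hk0 : dA k ≠ 0 := by
      intro h0
      rw [h0, zero_mul] at e1
      exact zero_ne_one e1
    exact mul_left_cancel₀ hk0 (e1.trans e2.symm)
  rintro ⟨k'', l⟩
  obtain ⟨l', hl'⟩ : ∃ l' : Fin b, l' ≠ l := by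
    by_cases h0 : l = ⟨0, by omega⟩
    · refine ⟨⟨1, by omega⟩, ?_⟩
      rw [h0]
      intro h
      have := congrArg Fin.val h
      simp at this
    · exact ⟨⟨0, by omega⟩, fun h => h0 h.symm⟩
  refine td2comb_key dA dB h1 (k'', l) (k'', l') ?_ ?_
  · intro h
    exact hl' (congrArg Prod.snd h).symm
  · show dA k'' * dB l = dA k'' * dB l'
    rw [hconst l l']

/-- TD2-COMB -/
theorem comb_min {L : Type*} [Field L] {a b : ℕ} (ha : 2 ≤ a) (hb : 2 ≤ b)
    (dA : Fin a → L) (dB : Fin b → L)
    (h1 : ∀ θ : L, θ ≠ 1 → Nat.card {p : Fin a × Fin b // dA p.1 * dB p.2 = θ} ≤ 1)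
    (h2 : ∃ p : Fin a × Fin b, dA p.1 * dB p.2 ≠ 1) :
    Function.Injective dA ∧ Function.Injective dB ∧
      Nat.card {p : Fin a × Fin b // dA p.1 * dB p.2 = 1} ≤ min a b := by
  obtain ⟨p₀, hp₀⟩ := h2
  have hA : Function.Injective dA := by
    intro k k' hd
    by_contra hkk
    exact hp₀ (td2comb_all_one hb dA dB h1 k k' hkk hd p₀)
  have hB : Function.Injective dB := by
    intro l l' hd
    by_contra hll
    -- swap the roles of the two factors
    have h1' : ∀ θ : L, θ ≠ 1 → Nat.card {p : Fin b × Fin a // dB p.1 * dA p.2 = θ} ≤ 1 := by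
      intro θ hθ
      refine le_trans (Nat.card_le_card_of_injective
        (fun p : {p : Fin b × Fin a // dB p.1 * dA p.2 = θ} =>
          (⟨(p.1.2, p.1.1), by rw [mul_comm]; exact p.2⟩ :
            {p : Fin a × Fin b // dA p.1 * dB p.2 = θ})) ?_) (h1 θ hθ)
      intro p p' h
      have h' := congrArg Subtype.val h
      apply Subtype.ext
      exact Prod.ext (congrArg Prod.snd h') (congrArg Prod.fst h')
    have := td2comb_all_one ha dB dA h1' l l' hll hd (p₀.2, p₀.1)
    apply hp₀
    rw [mul_comm]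
    exact this
  refine ⟨hA, hB, le_min ?_ ?_⟩
  · have h := Nat.card_le_card_of_injective
      (fun p : {p : Fin a × Fin b // dA p.1 * dB p.2 = 1} => p.1.1) (by
        intro p p' h
        have h' : p.1.1 = p'.1.1 := h
        apply Subtype.ext
        refine Prod.ext h' (hB ?_)
        have e1 := p.2
        have e2 := p'.2
        rw [← h'] at e2
        have hk0 : dA p.1.1 ≠ 0 := by
          intro h0
          rw [h0, zero_mul] at e1
          exact zero_ne_one e1
        exact mul_left_cancel₀ hk0 (e1.trans e2.symm))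
    rwa [Nat.card_fin] at h
  · have h := Nat.card_le_card_of_injective
      (fun p : {p : Fin a × Fin b // dA p.1 * dB p.2 = 1} => p.1.2) (by
        intro p p' h
        have h' : p.1.2 = p'.1.2 := h
        apply Subtype.ext
        refine Prod.ext (hA ?_) h'
        have e1 := p.2
        have e2 := p'.2
        rw [← h'] at e2
        have hk0 : dB p.1.2 ≠ 0 := by
          intro h0
          rw [h0, mul_zero] at e1
          exact zero_ne_one e1
        exact mul_right_cancel₀ hk0 (e1.trans e2.symm))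
    rwa [Nat.card_fin] at h

end Cfsg.Agent.Lib.Helper98.TD2
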