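import Mathlib
import Cfsg.Prelude.Def_GeometricClasses
import Cfsg.Agent.Lib.Helper97.Transv
import Cfsg.Agent.Lib.Helper97.TransvM
import Cfsg.Agent.Lib.Helper71.TP0
import Cfsg.Agent.Lib.Helper71.TP1

/-!
# S5637 piece RC (for helper71): `1 ⊗ B` with `(· − 1)² = 0` and small range is `1 + 1 ⊗ w ψᵀ`
-/

set_option autoImplicit false

namespace Cfsg.Agent.Lib.Helper19.TPRC

open Matrix Cfsg.Agent.Lib.Helper71.TP Cfsg.Agent.Lib.Helper97
open scoped Kronecker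

variable {a b : ℕ} {F : Type*} [Field F]

/-- RC -/
theorem kron_right_form (ha : 1 ≤ a) (c : F) (B : Matrix (Fin b) (Fin b) F)
    (S : Submodule F (Fin a × Fin b → F)) (hS : Module.finrank F ↥S ≤ a)
    (hrange : ∀ v : Fin a × Fin b → F,
      ((c • (1 : Matrix (Fin a) (Fin a) F)) ⊗ₖ B) *ᵥ v - v ∈ S)
    (hsq : ∀ v : Fin a × Fin b → F,
      ((c • (1 : Matrix (Fin a) (Fin a) F)) ⊗ₖ B) *ᵥ
        (((c • (1 : Matrix (Fin a) (Fin a) F)) ⊗ₖ B) *ᵥ v - v)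
        = ((c • (1 : Matrix (Fin a) (Fin a) F)) ⊗ₖ B) *ᵥ v - v)
    (hne : (c • (1 : Matrix (Fin a) (Fin a) F)) ⊗ₖ B ≠ 1) :
    ∃ w ψ : Fin b → F, w ≠ 0 ∧ ψ ≠ 0 ∧ ψ ⬝ᵥ w = 0 ∧
      (c • (1 : Matrix (Fin a) (Fin a) F)) ⊗ₖ B = 1 + kv 1 w ψ := by
  have hK : (c • (1 : Matrix (Fin a) (Fin a) F)) ⊗ₖ B =
      (1 : Matrix (Fin a) (Fin a) F) ⊗ₖ (c • B) := by
    rw [Matrix.smul_kronecker, Matrix.kronecker_smul]
  rw [hK] at hrange hsq hne ⊢
  generalize c • B = B' at hrange hsq hne ⊢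
  -- the action on pure tensors
  have hpt : ∀ (u : Fin a → F) (w' : Fin b → F),
      ((1 : Matrix (Fin a) (Fin a) F) ⊗ₖ B') *ᵥ pt u w' = pt u (B' *ᵥ w') := by
    intro u w'
    rw [kron_mulVec_pt, Matrix.one_mulVec]
  have hd : ∀ (u : Fin a → F) (w' : Fin b → F),
      ((1 : Matrix (Fin a) (Fin a) F) ⊗ₖ B') *ᵥ pt u w' - pt u w' = pt u (B' *ᵥ w' - w') := by
    intro u w'
    rw [hpt, pt_sub_right]
  -- `B' ≠ 1`
  have hex : ∃ w₁' : Fin b → F, B' *ᵥ w₁' - w₁' ≠ 0 := by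
    by_contra hcon
    push Not at hcon
    apply hne
    apply ext_pt
    intro u w'
    rw [hpt, Matrix.one_mulVec, sub_eq_zero.mp (hcon w')]
  obtain ⟨w₁', hw⟩ := hex
  -- `B' - 1` has rank one
  have hrank : ∀ w₂' : Fin b → F, ∃ l : F, B' *ᵥ w₂' - w₂' = l • (B' *ᵥ w₁' - w₁') := by
    intro w₂'
    by_contra hcon
    push Not at hcon
    have hnot1 : B' *ᵥ w₂' - w₂' ∉ Submodule.span F {B' *ᵥ w₁' - w₁'} := by
      intro hmem
      obtain ⟨l, hl⟩ := Submodule.mem_span_singleton.mp hmem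
      exact hcon l hl.symm
    have hnot2 : B' *ᵥ w₁' - w₁' ∉ Submodule.span F {B' *ᵥ w₂' - w₂'} := by
      intro hmem
      obtain ⟨l, hl⟩ := Submodule.mem_span_singleton.mp hmem
      have hl0 : l ≠ 0 := by
        rintro rfl
        rw [zero_smul] at hl
        exact hw hl.symm
      apply hcon l⁻¹
      rw [← hl, smul_smul, inv_mul_cancel₀ hl0, one_smul]
    obtain ⟨ψ₂, hψ₂a, hψ₂b⟩ := exists_dot (Submodule.span F {B' *ᵥ w₁' - w₁'}) _ hnot1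
    obtain ⟨ψ₁, hψ₁a, hψ₁b⟩ := exists_dot (Submodule.span F {B' *ᵥ w₂' - w₂'}) _ hnot2
    have hψ₂w : ψ₂ ⬝ᵥ (B' *ᵥ w₁' - w₁') = 0 := hψ₂a _ (Submodule.mem_span_singleton_self _)
    have hψ₁w₂ : ψ₁ ⬝ᵥ (B' *ᵥ w₂' - w₂') = 0 := hψ₁a _ (Submodule.mem_span_singleton_self _)
    have hT : ∀ x : (Fin a → F) × (Fin a → F),
        ((ptL (a := a) (B' *ᵥ w₁' - w₁')).coprod (ptL (a := a) (B' *ᵥ w₂' - w₂'))) x ∈ S := by
      rintro ⟨u₁, u₂⟩
      rw [LinearMap.coprod_apply, ptL_apply, ptL_apply]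
      apply S.add_mem
      · rw [← hd]
        exact hrange _
      · rw [← hd]
        exact hrange _
    have hinj : Function.Injective
        (((ptL (a := a) (B' *ᵥ w₁' - w₁')).coprod (ptL (a := a) (B' *ᵥ w₂' - w₂'))).codRestrict
          S hT) := by
      rintro ⟨u₁, u₂⟩ ⟨u₁', u₂'⟩ hx
      have hx' : pt u₁ (B' *ᵥ w₁' - w₁') + pt u₂ (B' *ᵥ w₂' - w₂') =
          pt u₁' (B' *ᵥ w₁' - w₁') + pt u₂' (B' *ᵥ w₂' - w₂') := by
        have h1 := congrArg Subtype.val hx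
        simpa only [LinearMap.codRestrict_apply, LinearMap.coprod_apply, ptL_apply] using h1
      have e1 := congrArg (ctr ψ₁) hx'
      have e2 := congrArg (ctr ψ₂) hx'
      simp only [ctr_add, ctr_pt, hψ₁b, hψ₁w₂, one_smul, zero_smul, add_zero] at e1
      simp only [ctr_add, ctr_pt, hψ₂b, hψ₂w, one_smul, zero_smul, zero_add] at e2
      rw [e1, e2]
    have hle := LinearMap.finrank_le_finrank_of_injective hinj
    rw [Module.finrank_prod, Module.finrank_fin_fun] at hle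
    omega
  choose lam hlam using hrank
  obtain ⟨w, hwdef⟩ : ∃ w : Fin b → F, w = B' *ᵥ w₁' - w₁' := ⟨_, rfl⟩
  rw [← hwdef] at hw hlam
  obtain ⟨ψ, hψdef⟩ : ∃ ψ : Fin b → F, ψ = fun j => lam (Pi.single j 1) := ⟨_, rfl⟩
  have hB' : B' = tv w ψ := by
    apply ext_mulVec_single
    intro m
    rw [tv_mulVec, dotProduct_single_one, hψdef]
    exact eq_add_of_sub_eq' (hlam (Pi.single m 1))
  have hBmul : ∀ y : Fin b → F, B' *ᵥ y = y + (ψ ⬝ᵥ y) • w := by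
    intro y
    rw [hB', tv_mulVec]
  have hψ0 : ψ ≠ 0 := by
    intro h0
    apply hw
    rw [hwdef, hBmul, h0, zero_dotProduct, zero_smul, add_zero, sub_self]
  have hψw : ψ ⬝ᵥ w = 0 := by
    have h1 := hsq (pt (Pi.single (⟨0, by omega⟩ : Fin a) 1) w₁')
    rw [hd, hpt, ← hwdef] at h1
    have h2 : B' *ᵥ w = w := by
      funext j
      have h3 := congrFun h1 (⟨0, by omega⟩, j)
      simpa using h3
    rw [hBmul] at h2
    have h5 : (ψ ⬝ᵥ w) • w = 0 := add_eq_left.mp h2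
    rcases smul_eq_zero.mp h5 with h6 | h6
    · exact h6
    · exact absurd h6 hw
  refine ⟨w, ψ, hw, hψ0, hψw, ?_⟩
  rw [hB', tv, Matrix.kronecker_add, Matrix.one_kronecker_one, kv]

end Cfsg.Agent.Lib.Helper19.TPRC
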