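import Mathlib
import Cfsg.Prelude.Def_GeometricClasses
import Cfsg.Agent.Lib.Helper97.Transv
import Cfsg.Agent.Lib.Helper97.TransvM
import Cfsg.Agent.Lib.Helper71.TP0
import Cfsg.Agent.Lib.Helper71.TP1

/-!
# S5637 piece TMC (for helper71): the commutator of two transvections
-/

set_option autoImplicit false

namespace Cfsg.Agent.Lib.Helper19.TPTMC

open Matrix Cfsg.Agent.Lib.Helper71.TP Cfsg.Agent.Lib.Helper97
open scoped Kronecker

variable {a b : ℕ} {F : Type*} [Field F]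

/-- a ring identity: `(1+X)(1+Y)(1-X)(1-Y) = 1 + XY` if `X² = Y² = YX = 0` -/
theorem comm_ring_aux {R : Type*} [Ring R] (X Y : R) (hXX : X * X = 0) (hYY : Y * Y = 0)
    (hYX : Y * X = 0) : (1 + X) * (1 + Y) * (1 + -X) * (1 + -Y) = 1 + X * Y := by
  have e1 : (1 + X) * (1 + Y) * (1 + -X) * (1 + -Y) =
      1 + X * Y - X * X - Y * X - X * (Y * X) - (Y * Y) - X * (Y * Y) + X * X * Y
        + Y * X * Y + X * (Y * X) * Y := by
    noncomm_ring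
  rw [e1, hXX, hYY, hYX]
  simp

/-- TMC -/
theorem TM_comm {ι : Type} [Fintype ι] [DecidableEq ι] (M : Subgroup (GL ι F))
    {v₁ f₁ v₂ f₂ : ι → F} (h₁ : TM M v₁ f₁) (h₂ : TM M v₂ f₂) (h : f₂ ⬝ᵥ v₁ = 0) :
    TM M v₁ ((f₁ ⬝ᵥ v₂) • f₂) := by
  have h0 : ((f₁ ⬝ᵥ v₂) • f₂) ⬝ᵥ v₁ = 0 := by
    rw [smul_dotProduct, h, smul_zero]
  refine ⟨h0, fun t ht => ?_⟩
  have hn₁ := TM_neg h₁
  have hn₂ := TM_neg h₂
  have h3 : t = tvG v₁ f₁ h₁.1 * tvG v₂ f₂ h₂.1 * tvG v₁ (-f₁) hn₁.1 * tvG v₂ (-f₂) hn₂.1 := by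
    apply Units.ext
    rw [ht, Units.val_mul, Units.val_mul, Units.val_mul, tvG_val, tvG_val, tvG_val, tvG_val]
    unfold tv
    rw [Matrix.vecMulVec_neg, Matrix.vecMulVec_neg,
      comm_ring_aux (vecMulVec v₁ f₁) (vecMulVec v₂ f₂)
        (by rw [Matrix.vecMulVec_mul_vecMulVec, h₁.1, zero_smul, Matrix.vecMulVec_zero])
        (by rw [Matrix.vecMulVec_mul_vecMulVec, h₂.1, zero_smul, Matrix.vecMulVec_zero])
        (by rw [Matrix.vecMulVec_mul_vecMulVec, h, zero_smul, Matrix.vecMulVec_zero]),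
      Matrix.vecMulVec_mul_vecMulVec]
  rw [h3]
  exact M.mul_mem (M.mul_mem (M.mul_mem h₁.mem h₂.mem) hn₁.mem) hn₂.mem

end Cfsg.Agent.Lib.Helper19.TPTMC
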