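import Mathlib
import Cfsg.Agent.Lib.Helper44.UDDefs

/-!
# S5655, piece Q2GEN (helper19 for helper44): for `q = 2`, a subgroup containing all the monomial
transvections `T_{e_i + ε e_j, 1}` contains every monomial matrix of determinant one.
-/

set_option autoImplicit false
set_option linter.unusedSectionVars false
set_option linter.unusedVariables false

namespace Cfsg.Agent.Lib.Helper44.UD

open Matrix Cfsg.Agent.Lib.Helper93 Cfsg.Agent.Lib.Helper18 Cfsg.Agent.Lib.Helper7

section
variable {F : Type*} [Field F] [Fintype F] {n : ℕ}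

/-- every standard basis vector is mapped to a multiple of a standard basis vector -/
def udq2gen_Mono (A : Matrix (Fin n) (Fin n) F) : Prop :=
  ∀ k : Fin n, ∃ (i : Fin n) (c : F), A *ᵥ Pi.single k 1 = c • Pi.single i 1

theorem udq2gen_mono_of_isMono (A : Matrix (Fin n) (Fin n) F) (h : IsMono A) :
    udq2gen_Mono A := by
  intro k
  obtain ⟨i, hi⟩ := h k
  refine ⟨i, A i k, ?_⟩
  funext i'
  rw [Matrix.mulVec_single_one]
  show A i' k = A i k * (Pi.single i 1 : Fin n → F) i'
  by_cases hii : i' = i
  · subst hii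
    rw [Pi.single_eq_same, mul_one]
  · rw [Pi.single_eq_of_ne hii, mul_zero]
    by_contra hne
    exact hii (hi i' hne)

theorem udq2gen_mono_mul (A B : Matrix (Fin n) (Fin n) F) (hA : udq2gen_Mono A)
    (hB : udq2gen_Mono B) : udq2gen_Mono (B * A) := by
  intro k
  obtain ⟨i, c, h1⟩ := hA k
  obtain ⟨i', c', h2⟩ := hB i
  refine ⟨i', c * c', ?_⟩
  rw [← Matrix.mulVec_mulVec, h1, Matrix.mulVec_smul, h2, smul_smul]

theorem udq2gen_ext (A B : Matrix (Fin n) (Fin n) F)
    (h : ∀ k : Fin n, A *ᵥ Pi.single k 1 = B *ᵥ Pi.single k 1) : A = B := by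
  ext i k
  have h1 := congrFun (h k) i
  rw [Matrix.mulVec_single_one, Matrix.mulVec_single_one] at h1
  exact h1

theorem udq2gen_ne (i k : Fin n) (c : F) (hik : i ≠ k) :
    c • (Pi.single i 1 : Fin n → F) ≠ Pi.single k 1 := by
  intro h
  have h1 := congrFun h k
  rw [Pi.smul_apply, Pi.single_eq_of_ne hik.symm, Pi.single_eq_same, smul_zero] at h1
  exact zero_ne_one h1

/-- the monomial transvection `T_{e_i + ε e_j, 1}` -/
theorem udq2gen_tau (hF : Fintype.card F = 2 ^ 2) (X : Subgroup (GL (Fin n) F))
    (hcen : ∀ (i j : Fin n) (ε : F), i ≠ j → ε ^ (2 + 1) = -1 →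
      Cen 2 X (Pi.single i 1 + ε • Pi.single j 1))
    (i j : Fin n) (hij : i ≠ j) (ε : F) (hε : ε ≠ 0) :
    ∃ x : GL (Fin n) F, x ∈ X ∧ (x : Matrix (Fin n) (Fin n) F).det = 1 ∧
      (x : Matrix (Fin n) (Fin n) F) *ᵥ Pi.single i 1 = ε • Pi.single j 1 ∧
      (x : Matrix (Fin n) (Fin n) F) *ᵥ Pi.single j 1 = ε⁻¹ • Pi.single i 1 ∧
      (∀ k, k ≠ i → k ≠ j →
        (x : Matrix (Fin n) (Fin n) F) *ᵥ Pi.single k 1 = Pi.single k 1) ∧
      udq2gen_Mono (x : Matrix (Fin n) (Fin n) F) := by
  have h2 : (2 : F) = 0 := two_eq_zero_of_card hF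
  have h11 : (1 : F) + 1 = 0 := by rw [one_add_one_eq_two]; exact h2
  have hneg : (-1 : F) = 1 := by linear_combination -h11
  have hε3 : ε ^ 3 = 1 := cube_eq_one_of_card hF ε hε
  have hε3' : ε ^ (2 + 1) = -1 := by rw [hneg]; exact hε3
  obtain ⟨hvv, hT⟩ := hcen i j ε hij hε3'
  obtain ⟨x, hxX, hx⟩ := hT 1 (by rw [one_pow]; exact h11)
  obtain ⟨v, hv⟩ : ∃ v : Fin n → F, v = Pi.single i 1 + ε • Pi.single j 1 := ⟨_, rfl⟩
  rw [← hv] at hvv hx
  have hvi : v i = 1 := by
    rw [hv, Pi.add_apply, Pi.smul_apply, Pi.single_eq_same, Pi.single_eq_of_ne hij, smul_zero,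
      add_zero]
  have hvj : v j = ε := by
    rw [hv, Pi.add_apply, Pi.smul_apply, Pi.single_eq_same, Pi.single_eq_of_ne hij.symm,
      smul_eq_mul, mul_one, zero_add]
  have hvk : ∀ k, k ≠ i → k ≠ j → v k = 0 := by
    intro k hki hkj
    rw [hv, Pi.add_apply, Pi.smul_apply, Pi.single_eq_of_ne hki, Pi.single_eq_of_ne hkj,
      smul_zero, add_zero]
  have hdbl : ∀ a b : Fin n → F, a + (a + b) = b := by
    intro a b
    rw [← add_assoc, ← two_smul F a, h2, zero_smul, zero_add]
  have hxi : (x : Matrix (Fin n) (Fin n) F) *ᵥ Pi.single i 1 = ε • Pi.single j 1 := by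
    rw [hx, unitaryTransvection_mulVec, hf_single_left, hvi, one_pow, mul_one, one_smul, hv]
    exact hdbl _ _
  have hxj : (x : Matrix (Fin n) (Fin n) F) *ᵥ Pi.single j 1 = ε⁻¹ • Pi.single i 1 := by
    have e1 : ε ^ 2 * ε = 1 := by rw [← pow_succ]; exact hε3
    have e2 : ε ^ 2 = ε⁻¹ := eq_inv_of_mul_eq_one_left e1
    rw [hx, unitaryTransvection_mulVec, hf_single_left, hvj, one_mul, hv, smul_add, smul_smul,
      e1, one_smul, e2, add_comm (ε⁻¹ • (Pi.single i 1 : Fin n → F)) _]
    exact hdbl _ _
  have hxk : ∀ k, k ≠ i → k ≠ j →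
      (x : Matrix (Fin n) (Fin n) F) *ᵥ Pi.single k 1 = Pi.single k 1 := by
    intro k hki hkj
    rw [hx, unitaryTransvection_mulVec, hf_single_left, hvk k hki hkj]
    simp
  refine ⟨x, hxX, ?_, hxi, hxj, hxk, ?_⟩
  · rw [hx]
    exact transvection_det n v 1 hvv
  · intro k
    by_cases hki : k = i
    · subst hki
      exact ⟨j, ε, hxi⟩
    · by_cases hkj : k = j
      · subst hkj
        exact ⟨i, ε⁻¹, hxj⟩
      · exact ⟨k, 1, by rw [hxk k hki hkj, one_smul]⟩

theorem udq2gen_key (hF : Fintype.card F = 2 ^ 2) (X : Subgroup (GL (Fin n) F))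
    (hcen : ∀ (i j : Fin n) (ε : F), i ≠ j → ε ^ (2 + 1) = -1 →
      Cen 2 X (Pi.single i 1 + ε • Pi.single j 1)) :
    ∀ (m : ℕ) (g : GL (Fin n) F), (g : Matrix (Fin n) (Fin n) F).det = 1 →
      udq2gen_Mono (g : Matrix (Fin n) (Fin n) F) →
      (∃ s : Finset (Fin n), s.card ≤ m ∧ ∀ k, k ∉ s →
        (g : Matrix (Fin n) (Fin n) F) *ᵥ Pi.single k 1 = Pi.single k 1) → g ∈ X := by
  classical
  have hone : ∀ g : GL (Fin n) F,
      (∀ k, (g : Matrix (Fin n) (Fin n) F) *ᵥ Pi.single k 1 = Pi.single k 1) → g ∈ X := by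
    intro g hfix
    have h1 : g = 1 := Units.ext (udq2gen_ext _ _ (fun k => by
      rw [hfix k, Units.val_one, Matrix.one_mulVec]))
    rw [h1]
    exact X.one_mem
  intro m
  induction m with
  | zero =>
    intro g _ _ hs
    obtain ⟨s, hs0, hs⟩ := hs
    have hs' : s = ∅ := Finset.card_eq_zero.1 (Nat.le_zero.1 hs0)
    refine hone g (fun k => hs k ?_)
    rw [hs']
    exact Finset.notMem_empty k
  | succ m ih =>
    intro g hdet hmono hs
    obtain ⟨s, hscard, hs⟩ := hs
    by_cases hall : ∀ k, (g : Matrix (Fin n) (Fin n) F) *ᵥ Pi.single k 1 = Pi.single k 1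
    · exact hone g hall
    · push Not at hall
      obtain ⟨j0, hj0⟩ := hall
      -- the reduction step
      have step : ∀ x : GL (Fin n) F, x ∈ X → (x : Matrix (Fin n) (Fin n) F).det = 1 →
          udq2gen_Mono (x : Matrix (Fin n) (Fin n) F) → ∀ j,
          (g : Matrix (Fin n) (Fin n) F) *ᵥ Pi.single j 1 ≠ Pi.single j 1 →
          ((x * g : GL (Fin n) F) : Matrix (Fin n) (Fin n) F) *ᵥ Pi.single j 1 = Pi.single j 1 →
          (∀ k, (g : Matrix (Fin n) (Fin n) F) *ᵥ Pi.single k 1 = Pi.single k 1 →
            ((x * g : GL (Fin n) F) : Matrix (Fin n) (Fin n) F) *ᵥ Pi.single k 1 =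
              Pi.single k 1) → g ∈ X := by
        intro x hx hxd hxm j hj hj' hfix
        have hmem : x * g ∈ X := by
          apply ih (x * g)
          · rw [Units.val_mul, Matrix.det_mul, hxd, hdet, one_mul]
          · rw [Units.val_mul]
            exact udq2gen_mono_mul _ _ hmono hxm
          · have hjs : j ∈ s := by
              by_contra hjs
              exact hj (hs j hjs)
            refine ⟨s.erase j, ?_, ?_⟩
            · rw [Finset.card_erase_of_mem hjs]
              omega
            · intro k hk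
              by_cases hkj : k = j
              · rw [hkj]
                exact hj'
              · have hks : k ∉ s := fun h => hk (Finset.mem_erase.2 ⟨hkj, h⟩)
                exact hfix k (hs k hks)
        have e : g = x⁻¹ * (x * g) := by group
        rw [e]
        exact X.mul_mem (X.inv_mem hx) hmem
      -- injectivity of `g`
      have hinj : ∀ a b : Fin n → F, (g : Matrix (Fin n) (Fin n) F) *ᵥ a =
          (g : Matrix (Fin n) (Fin n) F) *ᵥ b → a = b := by
        intro a b hab
        have h1 := congrArg (fun y => ((g⁻¹ : GL (Fin n) F) : Matrix (Fin n) (Fin n) F) *ᵥ y) hab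
        simp only [Matrix.mulVec_mulVec, ← Units.val_mul, inv_mul_cancel, Units.val_one,
          Matrix.one_mulVec] at h1
        exact h1
      have hcne : ∀ (j i : Fin n) (c : F),
          (g : Matrix (Fin n) (Fin n) F) *ᵥ Pi.single j 1 = c • Pi.single i 1 → c ≠ 0 := by
        intro j i c h hc0
        rw [hc0, zero_smul] at h
        have h1 := hinj (Pi.single j 1) 0 (by rw [h, Matrix.mulVec_zero])
        have h2 := congrFun h1 j
        rw [Pi.single_eq_same, Pi.zero_apply] at h2
        exact one_ne_zero h2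
      by_cases hA : ∃ (j i : Fin n) (c : F), i ≠ j ∧
          (g : Matrix (Fin n) (Fin n) F) *ᵥ Pi.single j 1 = c • Pi.single i 1
      · obtain ⟨j, i, c, hij, hgj⟩ := hA
        have hc : c ≠ 0 := hcne j i c hgj
        obtain ⟨x, hxX, hxd, hxi, hxj, hxk, hxm⟩ :=
          udq2gen_tau hF X hcen i j hij c⁻¹ (inv_ne_zero hc)
        refine step x hxX hxd hxm j ?_ ?_ ?_
        · rw [hgj]
          exact udq2gen_ne i j c hij
        · rw [Units.val_mul, ← Matrix.mulVec_mulVec, hgj, Matrix.mulVec_smul, hxi, smul_smul,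
            mul_inv_cancel₀ hc, one_smul]
        · intro k hgk
          have hkj : k ≠ j := by
            intro hkj
            rw [hkj, hgj] at hgk
            exact udq2gen_ne i j c hij hgk
          have hki : k ≠ i := by
            intro hki
            rw [hki] at hgk
            have h1 : (g : Matrix (Fin n) (Fin n) F) *ᵥ Pi.single j 1 =
                (g : Matrix (Fin n) (Fin n) F) *ᵥ (c • Pi.single i 1) := by
              rw [Matrix.mulVec_smul, hgk, hgj]
            exact udq2gen_ne i j c hij (hinj _ _ h1).symm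
          rw [Units.val_mul, ← Matrix.mulVec_mulVec, hgk, hxk k hki hkj]
      · -- the diagonal case
        push Not at hA
        have hdiag : ∀ k, ∃ c : F,
            (g : Matrix (Fin n) (Fin n) F) *ᵥ Pi.single k 1 = c • Pi.single k 1 := by
          intro k
          obtain ⟨i, c, h⟩ := hmono k
          by_cases hik : i = k
          · rw [hik] at h
            exact ⟨c, h⟩
          · exact absurd h (hA k i c hik)
        choose c hc using hdiag
        have hc0 : ∀ k, c k ≠ 0 := fun k => hcne k k (c k) (hc k)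
        have hc1 : ∀ k, (g : Matrix (Fin n) (Fin n) F) *ᵥ Pi.single k 1 = Pi.single k 1 →
            c k = 1 := by
          intro k hk
          have h1 := congrFun ((hc k).symm.trans hk) k
          rw [Pi.smul_apply, Pi.single_eq_same, smul_eq_mul, mul_one] at h1
          exact h1
        have hcj0 : c j0 ≠ 1 := by
          intro h
          apply hj0
          rw [hc, h, one_smul]
        have hex : ∃ k, k ≠ j0 ∧ c k ≠ 1 := by
          by_contra hcon
          push Not at hcon
          have hgd : (g : Matrix (Fin n) (Fin n) F) = Matrix.diagonal c :=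
            udq2gen_ext _ _ (fun k => by
              rw [hc k, Matrix.diagonal_mulVec_single, mul_one]
              funext l
              by_cases hlk : l = k
              · rw [hlk, Pi.smul_apply, Pi.single_eq_same, Pi.single_eq_same, smul_eq_mul,
                  mul_one]
              · rw [Pi.smul_apply, Pi.single_eq_of_ne hlk, Pi.single_eq_of_ne hlk, smul_zero])
          have h1 : (g : Matrix (Fin n) (Fin n) F).det = c j0 := by
            rw [hgd, Matrix.det_diagonal]
            exact Finset.prod_eq_single j0 (fun k _ hk => hcon k hk)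
              (fun h => absurd (Finset.mem_univ _) h)
          rw [hdet] at h1
          exact hcj0 h1.symm
        obtain ⟨k0, hk0, hck0⟩ := hex
        obtain ⟨a, haX, had, hai, haj, hak, ham⟩ :=
          udq2gen_tau hF X hcen j0 k0 hk0.symm (c j0)⁻¹ (inv_ne_zero (hc0 j0))
        obtain ⟨b, hbX, hbd, hbi, hbj, hbk, hbm⟩ :=
          udq2gen_tau hF X hcen j0 k0 hk0.symm 1 one_ne_zero
        refine step (b * a) (X.mul_mem hbX haX)
          (by rw [Units.val_mul, Matrix.det_mul, hbd, had, one_mul])
          (by rw [Units.val_mul]; exact udq2gen_mono_mul _ _ ham hbm) j0 hj0 ?_ ?_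
        · rw [Units.val_mul, Units.val_mul, ← Matrix.mulVec_mulVec, ← Matrix.mulVec_mulVec, hc j0,
            Matrix.mulVec_smul, hai, Matrix.mulVec_smul, Matrix.mulVec_smul, hbj, smul_smul,
            smul_smul, inv_one, mul_one, mul_inv_cancel₀ (hc0 j0), one_smul]
        · intro k hgk
          have hkj : k ≠ j0 := by
            intro hkj
            rw [hkj] at hgk
            exact hj0 hgk
          have hkk : k ≠ k0 := by
            intro hkk
            rw [hkk] at hgk
            exact hck0 (hc1 k0 hgk)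
          rw [Units.val_mul, Units.val_mul, ← Matrix.mulVec_mulVec, ← Matrix.mulVec_mulVec, hgk,
            hak k hkj hkk, hbk k hkj hkk]

end

theorem ud_q2gen {F : Type*} [Field F] [Fintype F] (q : ℕ) : Q2GenStmt F := by
  intro hF n _ X _ hcen g _ hdet hmono
  exact udq2gen_key hF X hcen n g hdet (udq2gen_mono_of_isMono _ hmono)
    ⟨Finset.univ, by rw [Finset.card_univ, Fintype.card_fin], fun k hk =>
      absurd (Finset.mem_univ k) hk⟩

end Cfsg.Agent.Lib.Helper44.UD
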