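import Mathlib
import Cfsg.Agent.Lib.Helper44.UDDefs

/-!
# S5655, piece TR (helper19 for helper44): the two-reflection lemma, glue from
BOREL, HYP, TRK, TRC, TRF
-/

set_option autoImplicit false

namespace Cfsg.Agent.Lib.Helper44.UD

open Matrix Cfsg.Agent.Lib.Helper93 Cfsg.Agent.Lib.Helper18 Cfsg.Agent.Lib.Helper7

theorem ud_tr {F : Type*} [Field F] [Fintype F] (q : ℕ) (h1 : BorelStmt F q) (h2 : HypStmt F q) (h3 : TRKStmt F q) (h4 : TRCStmt F q) (h5 : TRFStmt F q) : TRStmt F q := by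
  intro hF N Y hY u v e huu hvv huv hN he heu hev hYu hYv w hw hww
  by_cases hw0 : w = 0
  · subst hw0
    refine ⟨hww, fun c _ => ?_⟩
    have h0 : Cfsg.unitaryTransvection N q (0 : Fin N → F) c = 1 := by
      unfold Cfsg.unitaryTransvection
      rw [Matrix.zero_vecMulVec, smul_zero, add_zero]
    rw [h0]
    exact ⟨1, Y.one_mem, rfl⟩
  · obtain ⟨w', hw', hw'w', hww'⟩ := h2 hF N u v w huu hvv hN hw hw0 hww
    have hperp : ∀ x : Fin N → F, (∃ a b : F, x = a • u + b • v) →
        Cfsg.hermForm N F q e x = 0 := by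
      rintro x ⟨a, b, rfl⟩
      rw [hf_add_right hF, hf_smul_right, hf_smul_right, heu, hev]
      ring
    have hew := hperp w hw
    have hew' := hperp w' hw'
    obtain ⟨k1, k2, k3, k4⟩ := h3 hF N Y hY w w' e hww hw'w' hww' he hew hew'
    have hc := h4 hF N Y hY u v e w w' huu hvv huv hN he heu hev hYu hYv hw hw' hww hw'w' hww'
    refine ⟨hww, fun c hc0 => ?_⟩
    exact h5 hF N Y hY w w' e hww hw'w' hww' he hew hew' c
      (h1 hF (Gam q N Y w w' e) k1 k2 k3 k4 hc c hc0)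

end Cfsg.Agent.Lib.Helper44.UD
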